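import Mathlib
import Cfsg.Agent.Lib.Helper34.Critical

set_option autoImplicit false
universe u

namespace Cfsg.Agent.Lib.Helper53.ThRank

open Subgroup

/-- hypotheses on a "quadratic" central subgroup -/
structure QData (D : Type u) [Group D] (Zc : Subgroup D) : Prop where
  cen : ∀ z ∈ Zc, ∀ d : D, z * d = d * z
  sq : ∀ d : D, d ^ 2 ∈ Zc
  comm : ∀ x y : D, x * y * x⁻¹ * y⁻¹ ∈ Zc
  aniso : ∀ d : D, ∀ z ∈ Zc, d ^ 2 = z ^ 2 → d ∈ Zc

/-- the multiplicative form of the core hypothesis -/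
theorem core_mul (r : ℕ)
    (hcore : ∀ (k : ℕ) (U Z : Type u) [AddCommGroup U] [AddCommGroup Z] [Finite U] [Finite Z]
      (_ : ∀ u : U, u + u = 0) (_ : ∀ z : Z, z + z = 0) (sq : U → Z) (β : U → U → Z)
      (_ : ∀ u, sq u = 0 → u = 0) (_ : ∀ u v, sq (u + v) = sq u + sq v + β u v)
      (_ : ∀ u v w, β (u + v) w = β u w + β v w)
      (𝒜 : Subgroup (Equiv.Perm U)) (_ : ∀ a ∈ 𝒜, ∀ u v, a (u + v) = a u + a v)
      (_ : ∀ a ∈ 𝒜, ∀ b ∈ 𝒜, a * b = b * a)
      (_ : ∀ a ∈ 𝒜, a ^ r = 1) (_ : ∀ a ∈ 𝒜, ∀ u, sq (a u) = sq u)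
      (_ : r ^ k ≤ Nat.card 𝒜), 2 ^ k ≤ Nat.card Z)
    (k : ℕ) (U Z : Type u) [CommGroup U] [CommGroup Z] [Finite U] [Finite Z]
    (h2U : ∀ u : U, u * u = 1) (h2Z : ∀ z : Z, z * z = 1) (sq : U → Z) (β : U → U → Z)
    (hsq : ∀ u, sq u = 1 → u = 1) (hβ : ∀ u v, sq (u * v) = sq u * sq v * β u v)
    (hβadd : ∀ u v w, β (u * v) w = β u w * β v w)
    (𝒜 : Subgroup (Equiv.Perm U)) (hadd : ∀ a ∈ 𝒜, ∀ u v, a (u * v) = a u * a v)
    (hcomm : ∀ a ∈ 𝒜, ∀ b ∈ 𝒜, a * b = b * a)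
    (hexp : ∀ a ∈ 𝒜, a ^ r = 1) (hinv : ∀ a ∈ 𝒜, ∀ u, sq (a u) = sq u)
    (hk : r ^ k ≤ Nat.card 𝒜) : 2 ^ k ≤ Nat.card Z :=
  hcore k (Additive U) (Additive Z) h2U h2Z sq β hsq hβ hβadd 𝒜 hadd hcomm hexp hinv hk

theorem sq_mul_cen {D : Type u} [Group D] {Zc : Subgroup D} (h : QData D Zc) (d z : D)
    (hz : z ∈ Zc) : (d * z) ^ 2 = d ^ 2 * z ^ 2 := by
  have hc := h.cen z hz
  rw [pow_two, pow_two, pow_two]
  calc d * z * (d * z) = d * (z * d) * z := by simp only [mul_assoc]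
    _ = d * (d * z) * z := by rw [hc]
    _ = d * d * (z * z) := by simp only [mul_assoc]

theorem sq_mul_gen {D : Type u} [Group D] {Zc : Subgroup D} (h : QData D Zc) (a b : D) :
    (a * b) ^ 2 = a ^ 2 * b ^ 2 * (b * a * b⁻¹ * a⁻¹) := by
  have hc := h.cen _ (h.comm b a)
  rw [pow_two, pow_two, pow_two]
  calc a * b * (a * b) = a * ((b * a * b⁻¹ * a⁻¹) * (a * b * b)) := by group
    _ = a * ((a * b * b) * (b * a * b⁻¹ * a⁻¹)) := by rw [hc]
    _ = a * a * (b * b) * (b * a * b⁻¹ * a⁻¹) := by simp only [mul_assoc]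

theorem comm_mul_gen {D : Type u} [Group D] {Zc : Subgroup D} (h : QData D Zc) (w x y : D) :
    w * (x * y) * w⁻¹ * (x * y)⁻¹ = (w * x * w⁻¹ * x⁻¹) * (w * y * w⁻¹ * y⁻¹) := by
  have hc := h.cen _ (h.comm w y)
  calc w * (x * y) * w⁻¹ * (x * y)⁻¹ = w * x * w⁻¹ * ((w * y * w⁻¹ * y⁻¹) * x⁻¹) := by group
    _ = w * x * w⁻¹ * (x⁻¹ * (w * y * w⁻¹ * y⁻¹)) := by rw [hc]
    _ = (w * x * w⁻¹ * x⁻¹) * (w * y * w⁻¹ * y⁻¹) := by simp only [mul_assoc]

theorem core_abs (r : ℕ) [Fact r.Prime] (hr : r ≠ 2)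
    (hcoreM : ∀ (k : ℕ) (U Z : Type u) [CommGroup U] [CommGroup Z] [Finite U] [Finite Z]
      (_ : ∀ u : U, u * u = 1) (_ : ∀ z : Z, z * z = 1) (sq : U → Z) (β : U → U → Z)
      (_ : ∀ u, sq u = 1 → u = 1) (_ : ∀ u v, sq (u * v) = sq u * sq v * β u v)
      (_ : ∀ u v w, β (u * v) w = β u w * β v w)
      (𝒜 : Subgroup (Equiv.Perm U)) (_ : ∀ a ∈ 𝒜, ∀ u v, a (u * v) = a u * a v)
      (_ : ∀ a ∈ 𝒜, ∀ b ∈ 𝒜, a * b = b * a)
      (_ : ∀ a ∈ 𝒜, a ^ r = 1) (_ : ∀ a ∈ 𝒜, ∀ u, sq (a u) = sq u)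
      (_ : r ^ k ≤ Nat.card 𝒜), 2 ^ k ≤ Nat.card Z)
    {D : Type u} [Group D] [Finite D] (hD2 : IsPGroup 2 D) (Zc : Subgroup D) (h : QData D Zc)
    {U Z : Type u} [CommGroup U] [CommGroup Z] [Finite Z]
    (π : D →* U) (hπs : Function.Surjective π) (hπ : ∀ d, π d = 1 ↔ d ∈ Zc)
    (τ : ↥Zc →* Z) (hτs : Function.Surjective τ)
    (hτ : ∀ z : ↥Zc, τ z = 1 ↔ ∃ w ∈ Zc, (z : D) = w ^ 2)
    (B : Subgroup (MulAut D)) (hBc : ∀ a ∈ B, ∀ b ∈ B, a * b = b * a)
    (hBr : ∀ b ∈ B, b ^ r = 1) (hBz : ∀ b ∈ B, ∀ z ∈ Zc, b z = z) (k : ℕ)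
    (hk : Nat.card B = r ^ k) : 2 ^ k ≤ Nat.card Z := by
  classical
  have : Finite U := Finite.of_surjective π hπs
  -- section
  obtain ⟨s, hs⟩ : ∃ s : U → D, ∀ u, π (s u) = u := ⟨Function.surjInv hπs, Function.surjInv_eq hπs⟩
  -- the squaring map on D
  obtain ⟨q, hq⟩ : ∃ q : D → Z, ∀ d, q d = τ ⟨d ^ 2, h.sq d⟩ := ⟨_, fun _ => rfl⟩
  have q_mul_z : ∀ d : D, ∀ z ∈ Zc, q (d * z) = q d := by
    intro d z hz
    have e : (⟨(d * z) ^ 2, h.sq (d * z)⟩ : ↥Zc) = ⟨d ^ 2, h.sq d⟩ * ⟨z ^ 2, h.sq z⟩ :=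
      Subtype.ext (sq_mul_cen h d z hz)
    have e2 : τ ⟨z ^ 2, h.sq z⟩ = 1 := (hτ _).mpr ⟨z, hz, rfl⟩
    rw [hq, hq, e, map_mul, e2, mul_one]
  have q_eq : ∀ d d' : D, π d = π d' → q d = q d' := by
    intro d d' hdd
    have hz : d⁻¹ * d' ∈ Zc := by
      rw [← hπ, map_mul, map_inv, hdd, inv_mul_cancel]
    have := q_mul_z d (d⁻¹ * d') hz
    rw [mul_inv_cancel_left] at this
    exact this.symm
  obtain ⟨sq, sq_π⟩ : ∃ sq : U → Z, ∀ d, sq (π d) = q d :=
    ⟨fun u => q (s u), fun d => q_eq _ _ (hs (π d))⟩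
  -- commutator pairing
  obtain ⟨γ, hγ⟩ : ∃ γ : D → D → Z, ∀ x y, γ x y = τ ⟨x * y * x⁻¹ * y⁻¹, h.comm x y⟩ :=
    ⟨_, fun _ _ => rfl⟩
  have q_mul : ∀ a b : D, q (a * b) = q a * q b * γ b a := by
    intro a b
    have e : (⟨(a * b) ^ 2, h.sq (a * b)⟩ : ↥Zc)
        = ⟨a ^ 2, h.sq a⟩ * ⟨b ^ 2, h.sq b⟩ * ⟨b * a * b⁻¹ * a⁻¹, h.comm b a⟩ :=
      Subtype.ext (sq_mul_gen h a b)
    rw [hq, hq, hq, hγ, e, map_mul, map_mul]
  have γ_mul : ∀ w x y : D, γ w (x * y) = γ w x * γ w y := by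
    intro w x y
    have e : (⟨w * (x * y) * w⁻¹ * (x * y)⁻¹, h.comm w (x * y)⟩ : ↥Zc)
        = ⟨w * x * w⁻¹ * x⁻¹, h.comm w x⟩ * ⟨w * y * w⁻¹ * y⁻¹, h.comm w y⟩ :=
      Subtype.ext (comm_mul_gen h w x y)
    rw [hγ, hγ, hγ, e, map_mul]
  -- exponent 2
  have h2Z : ∀ z : Z, z * z = 1 := by
    intro z
    obtain ⟨w, rfl⟩ := hτs z
    rw [← map_mul, hτ]
    exact ⟨w, w.2, by rw [Subgroup.coe_mul, pow_two]⟩
  have h2U : ∀ u : U, u * u = 1 := by
    intro u
    obtain ⟨d, rfl⟩ := hπs u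
    rw [← map_mul, hπ, ← pow_two]
    exact h.sq d
  have cancel3 : ∀ a b c : Z, b * c * (a * b * c) = a := by
    intro a b c
    calc b * c * (a * b * c) = a * (b * b) * (c * c) := by
          simp only [mul_comm, mul_left_comm, mul_assoc]
      _ = a := by rw [h2Z b, h2Z c, mul_one, mul_one]
  obtain ⟨β, hβdef⟩ : ∃ β : U → U → Z, ∀ u v, β u v = sq (u * v) * sq u * sq v :=
    ⟨_, fun _ _ => rfl⟩
  have hβ : ∀ u v, sq (u * v) = sq u * sq v * β u v := fun u v => by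
    rw [hβdef]; exact (cancel3 _ _ _).symm
  have β_π : ∀ a b : D, β (π a) (π b) = γ b a := by
    intro a b
    rw [hβdef, ← map_mul, sq_π, sq_π, sq_π, q_mul]
    calc q a * q b * γ b a * q a * q b = γ b a * (q a * q a) * (q b * q b) := by
          simp only [mul_comm, mul_left_comm, mul_assoc]
      _ = γ b a := by rw [h2Z, h2Z, mul_one, mul_one]
  have hβadd : ∀ u v w, β (u * v) w = β u w * β v w := by
    intro u v w
    obtain ⟨x, rfl⟩ := hπs u
    obtain ⟨y, rfl⟩ := hπs v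
    obtain ⟨t, rfl⟩ := hπs w
    rw [← map_mul, β_π, β_π, β_π, γ_mul]
  have hsq0 : ∀ u, sq u = 1 → u = 1 := by
    intro u hu
    obtain ⟨d, rfl⟩ := hπs u
    rw [sq_π, hq] at hu
    obtain ⟨w, hw, hdw⟩ := (hτ _).mp hu
    exact (hπ d).mpr (h.aniso d w hw hdw)
  -- the action
  have act_π : ∀ b ∈ B, ∀ d, π (b (s (π d))) = π (b d) := by
    intro b hb d
    have hz : d⁻¹ * s (π d) ∈ Zc := by
      rw [← hπ, map_mul, map_inv, hs, inv_mul_cancel]
    have e : s (π d) = d * (d⁻¹ * s (π d)) := by group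
    rw [e, map_mul, hBz b hb _ hz, map_mul, (hπ _).mpr hz, mul_one]
  obtain ⟨ρ, hρ⟩ : ∃ ρ : ↥B →* Equiv.Perm U, ∀ (b : ↥B) (d : D), ρ b (π d) = π (b.1 d) := by
    refine ⟨{ toFun := fun b =>
                { toFun := fun u => π (b.1 (s u))
                  invFun := fun u => π (b.1⁻¹ (s u))
                  left_inv := ?_
                  right_inv := ?_ }
              map_one' := ?_
              map_mul' := ?_ }, ?_⟩
    · intro u
      show π (b.1⁻¹ (s (π (b.1 (s u))))) = u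
      rw [act_π _ (B.inv_mem b.2)]
      show π (b.1⁻¹ (b.1 (s u))) = u
      rw [MulAut.inv_apply_self, hs]
    · intro u
      show π (b.1 (s (π (b.1⁻¹ (s u))))) = u
      rw [act_π _ b.2, MulAut.apply_inv_self, hs]
    · ext u
      show π ((1 : MulAut D) (s u)) = u
      rw [MulAut.one_apply, hs]
    · intro b c
      ext u
      show π ((b.1 * c.1) (s u)) = π (b.1 (s (π (c.1 (s u)))))
      rw [act_π _ b.2, MulAut.mul_apply]
    · intro b d
      exact act_π b.1 b.2 d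
  -- injectivity
  have hρinj : Function.Injective ρ := by
    rw [injective_iff_map_eq_one]
    intro b hb
    have hfix : ∀ d : D, b.1 d = d := by
      intro d
      have h1 : π (b.1 d) = π d := by rw [← hρ, hb]; rfl
      have hc : d⁻¹ * b.1 d ∈ Zc := by
        rw [← hπ, map_mul, map_inv, h1, inv_mul_cancel]
      set c := d⁻¹ * b.1 d with hc_def
      have hbd : b.1 d = d * c := by rw [hc_def]; group
      have hbc : b.1 c = c := hBz b.1 b.2 c hc
      have hpow : ∀ j : ℕ, (b.1 ^ j) d = d * c ^ j ∧ (b.1 ^ j) c = c := by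
        intro j
        induction j with
        | zero => simp
        | succ j ih =>
          rw [pow_succ', MulAut.mul_apply, MulAut.mul_apply, ih.1, ih.2, map_mul, map_pow, hbd,
            hbc]
          exact ⟨by rw [pow_succ, mul_assoc, ← pow_succ, ← pow_succ'], rfl⟩
      have hr1 := (hpow r).1
      rw [hBr b.1 b.2, MulAut.one_apply] at hr1
      have hcr : c ^ r = 1 := by
        have := hr1.symm
        rwa [mul_eq_left] at this
      obtain ⟨m, hm⟩ := hD2 c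
      have hcop : Nat.Coprime r (2 ^ m) := by
        apply Nat.Coprime.pow_right
        rw [Nat.coprime_primes (Fact.out : r.Prime) Nat.prime_two]
        exact hr
      have hc1 : c = 1 := by
        have h1 := orderOf_dvd_of_pow_eq_one hcr
        have h2 := orderOf_dvd_of_pow_eq_one hm
        have := Nat.dvd_gcd h1 h2
        rw [hcop.gcd_eq_one, Nat.dvd_one, orderOf_eq_one_iff] at this
        exact this
      rw [hbd, hc1, mul_one]
    exact Subtype.ext (MulEquiv.ext hfix)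
  -- apply the core
  refine hcoreM k U Z h2U h2Z sq β hsq0 hβ hβadd ρ.range ?_ ?_ ?_ ?_ ?_
  · rintro _ ⟨b, rfl⟩ u v
    obtain ⟨x, rfl⟩ := hπs u
    obtain ⟨y, rfl⟩ := hπs v
    rw [← map_mul, hρ, hρ, hρ, map_mul, map_mul]
  · rintro _ ⟨b, rfl⟩ _ ⟨c, rfl⟩
    rw [← map_mul, ← map_mul]
    congr 1
    exact Subtype.ext (hBc b.1 b.2 c.1 c.2)
  · rintro _ ⟨b, rfl⟩
    rw [← map_pow]
    have : b ^ r = 1 := Subtype.ext (by simpa using hBr b.1 b.2)
    rw [this, map_one]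
  · rintro _ ⟨b, rfl⟩ u
    obtain ⟨d, rfl⟩ := hπs u
    rw [hρ, sq_π, sq_π, hq, hq]
    congr 1
    apply Subtype.ext
    show (b.1 d) ^ 2 = d ^ 2
    rw [← map_pow, hBz b.1 b.2 _ (h.sq d)]
  · rw [← hk]
    exact le_of_eq (Nat.card_congr (MonoidHom.ofInjective hρinj).toEquiv)


theorem core (r : ℕ) [Fact r.Prime] (hr : r ≠ 2)
    (hcoreM : ∀ (k : ℕ) (U Z : Type u) [CommGroup U] [CommGroup Z] [Finite U] [Finite Z]
      (_ : ∀ u : U, u * u = 1) (_ : ∀ z : Z, z * z = 1) (sq : U → Z) (β : U → U → Z)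
      (_ : ∀ u, sq u = 1 → u = 1) (_ : ∀ u v, sq (u * v) = sq u * sq v * β u v)
      (_ : ∀ u v w, β (u * v) w = β u w * β v w)
      (𝒜 : Subgroup (Equiv.Perm U)) (_ : ∀ a ∈ 𝒜, ∀ u v, a (u * v) = a u * a v)
      (_ : ∀ a ∈ 𝒜, ∀ b ∈ 𝒜, a * b = b * a)
      (_ : ∀ a ∈ 𝒜, a ^ r = 1) (_ : ∀ a ∈ 𝒜, ∀ u, sq (a u) = sq u)
      (_ : r ^ k ≤ Nat.card 𝒜), 2 ^ k ≤ Nat.card Z)
    {D : Type u} [Group D] [Finite D] (hD2 : IsPGroup 2 D) (Zc : Subgroup D) (h : QData D Zc)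
    (n : ℕ) (hcount : Nat.card {z : D // z ∈ Zc ∧ z ^ 2 = 1} ≤ 2 ^ n)
    (B : Subgroup (MulAut D)) (hBc : ∀ a ∈ B, ∀ b ∈ B, a * b = b * a)
    (hBr : ∀ b ∈ B, b ^ r = 1) (hBz : ∀ b ∈ B, ∀ z ∈ Zc, b z = z) :
    Nat.card B ≤ r ^ n := by
  classical
  have hN : Zc.Normal :=
    ⟨fun z hz g => by rw [← h.cen z hz g, mul_inv_cancel_right]; exact hz⟩
  letI iU : CommGroup (D ⧸ Zc) :=
    { (inferInstance : Group (D ⧸ Zc)) with
      mul_comm := by
        intro x y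
        induction x using QuotientGroup.induction_on with
        | _ x =>
          induction y using QuotientGroup.induction_on with
          | _ y =>
            rw [← QuotientGroup.mk_mul, ← QuotientGroup.mk_mul, QuotientGroup.eq]
            have := h.comm y⁻¹ x⁻¹
            have e : (x * y)⁻¹ * (y * x) = y⁻¹ * x⁻¹ * y⁻¹⁻¹ * x⁻¹⁻¹ := by group
            rw [e]; exact this }
  letI iZc : CommGroup ↥Zc :=
    { (inferInstance : Group ↥Zc) with
      mul_comm := fun x y => Subtype.ext (h.cen x.1 x.2 y.1) }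
  let σ : ↥Zc →* ↥Zc := powMonoidHom 2
  have hσ : ∀ w : ↥Zc, σ w = w ^ 2 := fun w => rfl
  let W : Subgroup ↥Zc := σ.range
  have hfinB : Finite (MulAut D) := Finite.of_injective (fun f : MulAut D => (f : D → D))
    (fun f g hfg => MulEquiv.ext (congrFun hfg))
  have hBp : IsPGroup r ↥B := by
    intro b
    refine ⟨1, ?_⟩
    rw [pow_one]
    exact Subtype.ext (by simpa using hBr b.1 b.2)
  obtain ⟨k, hk⟩ := IsPGroup.iff_card.mp hBp
  have key := core_abs r hr hcoreM hD2 Zc h (U := D ⧸ Zc) (Z := ↥Zc ⧸ W)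
    (QuotientGroup.mk' Zc) (QuotientGroup.mk'_surjective Zc)
    (fun d => QuotientGroup.eq_one_iff d)
    (QuotientGroup.mk' W) (QuotientGroup.mk'_surjective W)
    (by
      intro z
      rw [QuotientGroup.mk'_apply, QuotientGroup.eq_one_iff]
      constructor
      · rintro ⟨w, hw⟩
        refine ⟨w.1, w.2, ?_⟩
        rw [← hw, hσ]; rfl
      · rintro ⟨w, hw, hzw⟩
        exact ⟨⟨w, hw⟩, Subtype.ext (by rw [hσ]; exact hzw.symm)⟩)
    B hBc hBr hBz k hk
  have hZcard : Nat.card (↥Zc ⧸ W) = Nat.card σ.ker := by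
    have h1 : Nat.card σ.ker * σ.ker.index = Nat.card ↥Zc := Subgroup.card_mul_index _
    have h2 : σ.ker.index = Nat.card σ.range := Subgroup.index_ker σ
    have h3 : Nat.card W * W.index = Nat.card ↥Zc := Subgroup.card_mul_index _
    have h4 : 0 < Nat.card W := Nat.card_pos
    have h5 : W.index = Nat.card (↥Zc ⧸ W) := rfl
    rw [← h5]
    rw [h2, ← h3, mul_comm] at h1
    exact (Nat.eq_of_mul_eq_mul_left h4 h1).symm
  have hker : Nat.card σ.ker ≤ Nat.card {z : D // z ∈ Zc ∧ z ^ 2 = 1} := by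
    refine Nat.card_le_card_of_injective
      (fun x : σ.ker => (⟨x.1.1, x.1.2, ?_⟩ : {z : D // z ∈ Zc ∧ z ^ 2 = 1})) ?_
    · have := x.2
      rw [MonoidHom.mem_ker, hσ] at this
      exact congrArg Subtype.val this
    · intro x y hxy
      have := congrArg Subtype.val hxy
      exact Subtype.ext (Subtype.ext this)
  have h2k : 2 ^ k ≤ 2 ^ n := by
    calc 2 ^ k ≤ Nat.card (↥Zc ⧸ W) := key
      _ = Nat.card σ.ker := hZcard
      _ ≤ _ := hker
      _ ≤ 2 ^ n := hcount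
  have hkn : k ≤ n := (Nat.pow_le_pow_iff_right (by norm_num)).mp h2k
  rw [hk]
  exact Nat.pow_le_pow_right (Fact.out : r.Prime).pos hkn


theorem rank_le {G : Type u} [Group G] [Finite G] (r : ℕ) [Fact r.Prime] (hr : r ≠ 2)
    (hcore : ∀ (k : ℕ) (U Z : Type u) [AddCommGroup U] [AddCommGroup Z] [Finite U] [Finite Z]
      (_ : ∀ u : U, u + u = 0) (_ : ∀ z : Z, z + z = 0) (sq : U → Z) (β : U → U → Z)
      (_ : ∀ u, sq u = 0 → u = 0) (_ : ∀ u v, sq (u + v) = sq u + sq v + β u v)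
      (_ : ∀ u v w, β (u + v) w = β u w + β v w)
      (𝒜 : Subgroup (Equiv.Perm U)) (_ : ∀ a ∈ 𝒜, ∀ u v, a (u + v) = a u + a v)
      (_ : ∀ a ∈ 𝒜, ∀ b ∈ 𝒜, a * b = b * a)
      (_ : ∀ a ∈ 𝒜, a ^ r = 1) (_ : ∀ a ∈ 𝒜, ∀ u, sq (a u) = sq u)
      (_ : r ^ k ≤ Nat.card 𝒜), 2 ^ k ≤ Nat.card Z)
    (Q A : Subgroup G) (hQ : IsPGroup 2 Q) (hAQ : A ≤ Subgroup.normalizer (Q : Set G))
    (hAc : ∀ a ∈ A, ∀ b ∈ A, a * b = b * a) (hAr : ∀ a ∈ A, a ^ r = 1)
    (hinvQ : ∀ x ∈ Q, x ^ 2 = 1 → ∀ y ∈ Q, x * y = y * x)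
    (hinvA : ∀ x ∈ Q, x ^ 2 = 1 → ∀ a ∈ A, a * x = x * a)
    (hfaith : ∀ a ∈ A, (∀ x ∈ Q, a * x = x * a) → a = 1)
    (n : ℕ) (hn : Nat.card {x : G // x ∈ Q ∧ x ^ 2 = 1} ≤ 2 ^ n) :
    Nat.card A ≤ r ^ n := by
  classical
  haveI : Fact (Nat.Prime 2) := ⟨Nat.prime_two⟩
  have hrodd : ∃ m, r = 2 * m + 1 := by
    have := (Fact.out : r.Prime).eq_two_or_odd'
    rcases this with h | h
    · exact absurd h hr
    · exact h
  obtain ⟨D, hDQ, hchar, hpow, hcc, -, -, haut⟩ :=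
    Cfsg.Agent.Lib.Helper34.Critical.exists_critical_in (p := 2) Q hQ
  -- conjugation automorphisms of Q
  have hφ : ∀ (a : G) (ha : a ∈ A) (x : ↥Q),
      ((Q.normalizerMonoidHom ⟨a, hAQ ha⟩ x : ↥Q) : G) = a * x * a⁻¹ := fun a ha x => rfl
  -- (1) A normalizes D
  have hAD : ∀ a ∈ A, ∀ d ∈ D, a * d * a⁻¹ ∈ D := by
    intro a ha d hd
    have h1 := hchar.fixed (Q.normalizerMonoidHom ⟨a, hAQ ha⟩)
    have h2 : (⟨d, hDQ hd⟩ : ↥Q) ∈ D.subgroupOf Q := by
      rw [mem_subgroupOf]; exact hd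
    rw [← h1, mem_comap, mem_subgroupOf] at h2
    exact h2
  have hcenD : ∀ z ∈ D ⊓ centralizer (D : Set G), ∀ d ∈ D, z * d = d * z := by
    intro z hz d hd
    exact ((mem_centralizer_iff.mp hz.2) d hd).symm
  -- (1') A normalizes ZD
  have hAZ : ∀ a ∈ A, ∀ z ∈ D ⊓ centralizer (D : Set G),
      a * z * a⁻¹ ∈ D ⊓ centralizer (D : Set G) := by
    intro a ha z hz
    refine Subgroup.mem_inf.mpr ⟨hAD a ha z hz.1, ?_⟩
    rw [mem_centralizer_iff]
    intro d hd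
    have hd' : a⁻¹ * d * a⁻¹⁻¹ ∈ D := hAD a⁻¹ (A.inv_mem ha) d hd
    have hzc := hcenD z hz _ hd'
    calc d * (a * z * a⁻¹) = a * ((a⁻¹ * d * a⁻¹⁻¹) * z) * a⁻¹ := by group
      _ = a * (z * (a⁻¹ * d * a⁻¹⁻¹)) * a⁻¹ := by rw [hzc]
      _ = a * z * a⁻¹ * d := by group
  -- elements of ZD commute
  have hZcomm : ∀ z ∈ D ⊓ centralizer (D : Set G), ∀ w ∈ D ⊓ centralizer (D : Set G),
      z * w = w * z := fun z hz w hw => hcenD z hz w hw.1
  -- (2) A centralizes ZD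
  have hAcen : ∀ a ∈ A, ∀ z ∈ D ⊓ centralizer (D : Set G), a * z * a⁻¹ = z := by
    have key : ∀ m : ℕ, ∀ z ∈ D ⊓ centralizer (D : Set G), z ^ 2 ^ m = 1 →
        ∀ a ∈ A, a * z * a⁻¹ = z := by
      intro m
      induction m with
      | zero =>
        intro z _ hz1 a _
        rw [pow_zero, pow_one] at hz1
        rw [hz1, mul_one, mul_inv_cancel]
      | succ m ih =>
        intro z hz hz1 a ha
        have hz2 : z ^ 2 ∈ D ⊓ centralizer (D : Set G) := Subgroup.pow_mem _ hz 2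
        have hz2' : (z ^ 2) ^ 2 ^ m = 1 := by rw [← pow_mul, ← pow_succ']; exact hz1
        have h2 := ih (z ^ 2) hz2 hz2' a ha
        -- c := z⁻¹ * (a z a⁻¹)
        have hazm := hAZ a ha z hz
        have hcm : z⁻¹ * (a * z * a⁻¹) ∈ D ⊓ centralizer (D : Set G) :=
          Subgroup.mul_mem _ (Subgroup.inv_mem _ hz) hazm
        obtain ⟨c, hc⟩ : ∃ c, c = z⁻¹ * (a * z * a⁻¹) := ⟨_, rfl⟩
        rw [← hc] at hcm
        have haz : a * z * a⁻¹ = z * c := by rw [hc]; group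
        have hcomm := hZcomm z hz c hcm
        have hc2 : c ^ 2 = 1 := by
          have e1 : (z * c) ^ 2 = z ^ 2 := by
            rw [← haz, ← h2]
            rw [pow_two, pow_two]; group
          have e2 : (z * c) ^ 2 = z ^ 2 * c ^ 2 := by
            rw [pow_two, pow_two, pow_two]
            calc z * c * (z * c) = z * (c * z) * c := by simp only [mul_assoc]
              _ = z * (z * c) * c := by rw [hcomm]
              _ = z * z * (c * c) := by simp only [mul_assoc]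
          rw [e2] at e1
          exact mul_eq_left.mp e1
        have hac : a * c = c * a := hinvA c (hDQ hcm.1) hc2 a ha
        have hpw : ∀ j : ℕ, a ^ j * z * (a ^ j)⁻¹ = z * c ^ j := by
          intro j
          induction j with
          | zero => simp
          | succ j ihj =>
            have hacj : a * c ^ j = c ^ j * a := (Commute.pow_right (show Commute a c from hac) j).eq
            calc a ^ (j + 1) * z * (a ^ (j + 1))⁻¹ = a * (a ^ j * z * (a ^ j)⁻¹) * a⁻¹ := by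
                  rw [pow_succ']; group
              _ = a * (z * c ^ j) * a⁻¹ := by rw [ihj]
              _ = (a * z * a⁻¹) * (a * c ^ j) * a⁻¹ := by group
              _ = (z * c) * (c ^ j * a) * a⁻¹ := by rw [haz, hacj]
              _ = z * c ^ (j + 1) := by rw [pow_succ']; group
        have hr1 := hpw r
        rw [hAr a ha, one_mul, inv_one, mul_one] at hr1
        have hcr : c ^ r = 1 := mul_eq_left.mp hr1.symm
        obtain ⟨m', hm'⟩ := hrodd
        have hc1 : c = 1 := by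
          rw [hm', pow_succ, pow_mul, hc2, one_pow, one_mul] at hcr
          exact hcr
        rw [haz, hc1, mul_one]
    intro a ha z hz
    obtain ⟨m, hm⟩ := hQ ⟨z, hDQ hz.1⟩
    have hm' : z ^ 2 ^ m = 1 := by
      have := congrArg Subtype.val hm
      simpa using this
    exact key m z hz hm' a ha
  -- the group D and its central subgroup
  have hAD' : A ≤ normalizer (D : Set G) := le_normalizer_iff.mpr hAD
  have hQD : QData ↥D ((D ⊓ centralizer (D : Set G)).subgroupOf D) := by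
    refine ⟨?_, ?_, ?_, ?_⟩
    · intro z hz d
      rw [mem_subgroupOf] at hz
      exact Subtype.ext (hcenD z.1 hz d.1 d.2)
    · intro d
      rw [mem_subgroupOf]
      exact hpow d.1 d.2
    · intro x y
      rw [mem_subgroupOf]
      refine ⟨(x * y * x⁻¹ * y⁻¹).2, ?_⟩
      apply hcc
      have := Subgroup.commutator_mem_commutator x.2 y.2
      rw [commutatorElement_def] at this
      exact this
    · intro d z hz hdz
      rw [mem_subgroupOf] at hz ⊢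
      have hdz' : (d : G) ^ 2 = (z : G) ^ 2 := by
        have := congrArg Subtype.val hdz
        simpa using this
      have hzd : (z : G) * d = d * z := hcenD z.1 hz d.1 d.2
      have hzd' : (z : G)⁻¹ * d = d * (z : G)⁻¹ := by
        calc (z : G)⁻¹ * d = (z : G)⁻¹ * (d * z) * (z : G)⁻¹ := by group
          _ = (z : G)⁻¹ * (z * d) * (z : G)⁻¹ := by rw [hzd]
          _ = d * (z : G)⁻¹ := by group
      have hx2 : ((d : G) * (z : G)⁻¹) ^ 2 = 1 := by
        rw [pow_two]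
        calc (d : G) * (z : G)⁻¹ * (d * (z : G)⁻¹) = d * ((z : G)⁻¹ * d) * (z : G)⁻¹ := by
              simp only [mul_assoc]
          _ = d * (d * (z : G)⁻¹) * (z : G)⁻¹ := by rw [hzd']
          _ = (d : G) ^ 2 * ((z : G) ^ 2)⁻¹ := by rw [pow_two, pow_two]; group
          _ = 1 := by rw [hdz', mul_inv_cancel]
      have hxD : (d : G) * (z : G)⁻¹ ∈ D := D.mul_mem d.2 (D.inv_mem hz.1)
      have hxc : (d : G) * (z : G)⁻¹ ∈ D ⊓ centralizer (D : Set G) := by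
        refine Subgroup.mem_inf.mpr ⟨hxD, ?_⟩
        rw [mem_centralizer_iff]
        intro y hy
        exact (hinvQ _ (hDQ hxD) hx2 y (hDQ hy)).symm
      have : (d : G) = (d : G) * (z : G)⁻¹ * z := by group
      rw [this]
      exact Subgroup.mul_mem _ hxc hz
  -- the action of A on D
  let κ : ↥A →* MulAut ↥D := D.normalizerMonoidHom.comp (Subgroup.inclusion hAD')
  have hκ : ∀ (a : ↥A) (d : ↥D), ((κ a d : ↥D) : G) = a * d * (a : G)⁻¹ := fun a d => rfl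
  have hκinj : Function.Injective κ := by
    rw [injective_iff_map_eq_one]
    intro a ha
    have hfixD : ∀ d ∈ D, (a : G) * d * (a : G)⁻¹ = d := by
      intro d hd
      have := hκ a ⟨d, hd⟩
      rw [ha] at this
      exact this.symm
    have hφr : (Q.normalizerMonoidHom ⟨a.1, hAQ a.2⟩) ^ r = 1 := by
      rw [← map_pow]
      have : (⟨a.1, hAQ a.2⟩ : ↥(normalizer (Q : Set G))) ^ r = 1 :=
        Subtype.ext (by simpa using hAr a.1 a.2)
      rw [this, map_one]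
    have hcop : (orderOf (Q.normalizerMonoidHom ⟨a.1, hAQ a.2⟩)).Coprime 2 := by
      have hdvd := orderOf_dvd_of_pow_eq_one hφr
      have : Nat.Coprime r 2 := by
        rw [Nat.coprime_primes (Fact.out : r.Prime) Nat.prime_two]; exact hr
      exact Nat.Coprime.coprime_dvd_left hdvd this
    have hφ1 := haut _ hcop (fun x hx => Subtype.ext (by rw [hφ a.1 a.2]; exact hfixD _ hx))
    have : (a : G) = 1 := by
      apply hfaith a.1 a.2
      intro x hx
      have := hφ a.1 a.2 ⟨x, hx⟩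
      rw [hφ1] at this
      have h3 : (a : G) * x * (a : G)⁻¹ = x := this.symm
      calc (a : G) * x = (a : G) * x * (a : G)⁻¹ * a := by group
        _ = x * a := by rw [h3]
    exact Subtype.ext this
  have hBcard : Nat.card κ.range = Nat.card A :=
    (Nat.card_congr (MonoidHom.ofInjective hκinj).toEquiv).symm
  rw [← hBcard]
  have hD2 : IsPGroup 2 ↥D := hQ.to_le hDQ
  have hcount : Nat.card {z : ↥D // z ∈ (D ⊓ centralizer (D : Set G)).subgroupOf D ∧ z ^ 2 = 1}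
      ≤ 2 ^ n := by
    refine le_trans (Nat.card_le_card_of_injective
      (fun z : {z : ↥D // z ∈ (D ⊓ centralizer (D : Set G)).subgroupOf D ∧ z ^ 2 = 1} =>
        (⟨z.1.1, hDQ z.1.2, ?_⟩ : {x : G // x ∈ Q ∧ x ^ 2 = 1})) ?_) hn
    · have := congrArg Subtype.val z.2.2
      simpa using this
    · intro x y hxy
      have := congrArg Subtype.val hxy
      exact Subtype.ext (Subtype.ext this)
  refine core r hr (core_mul r hcore) hD2 _ hQD n hcount κ.range ?_ ?_ ?_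
  · rintro _ ⟨a, rfl⟩ _ ⟨b, rfl⟩
    rw [← map_mul, ← map_mul]
    congr 1
    exact Subtype.ext (hAc a.1 a.2 b.1 b.2)
  · rintro _ ⟨a, rfl⟩
    rw [← map_pow]
    have : a ^ r = 1 := Subtype.ext (by simpa using hAr a.1 a.2)
    rw [this, map_one]
  · rintro _ ⟨a, rfl⟩ z hz
    rw [mem_subgroupOf] at hz
    exact Subtype.ext (by rw [hκ]; exact hAcen a.1 a.2 z.1 hz)

end Cfsg.Agent.Lib.Helper53.ThRank
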