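import Mathlib
import Cfsg.Agent.Lib.Helper19.BTGen

/-!
# S2369 / FREEDVD: an element of prime order `r` not dividing `|Q|` that commutes with `a` acts
freely on the cosets of `Q` fixed by `a`
-/

set_option autoImplicit false

namespace Cfsg.Agent.Lib.Helper53.BTFREEDVD

open Cfsg.Agent.Lib.Helper19.BTGen

universe u

theorem main : FreeDvd.{u} := by
  intro G _ _ Q a c r hr hac hc hrQ
  haveI : Fact r.Prime := ⟨hr⟩
  have hc1 : c ≠ 1 := by
    intro h
    rw [h, orderOf_one] at hc
    exact hr.one_lt.ne hc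
  have hcr : c ^ r = 1 := by rw [← hc]; exact pow_orderOf_eq_one c
  -- the sub-action on the cosets fixed by `a`
  let S : SubMulAction ↥(Subgroup.zpowers c) (G ⧸ Q) :=
    { carrier := {x | a • x = x}
      smul_mem' := by
        rintro ⟨h, hh⟩ x hx
        obtain ⟨k, rfl⟩ := Subgroup.mem_zpowers_iff.mp hh
        show a • ((c ^ k) • x) = (c ^ k) • x
        have hx' : a • x = x := hx
        rw [← mul_smul, (Commute.zpow_right hac k).eq, mul_smul, hx'] }
  have hP : IsPGroup r ↥(Subgroup.zpowers c) :=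
    IsPGroup.of_card (n := 1) (by rw [Nat.card_zpowers, hc, pow_one])
  have hmod := hP.card_modEq_card_fixedPoints ↥S
  have hfix : IsEmpty ↥(MulAction.fixedPoints ↥(Subgroup.zpowers c) ↥S) := by
    constructor
    rintro ⟨⟨x, hx⟩, hfx⟩
    have h1 := hfx ⟨c, Subgroup.mem_zpowers c⟩
    have h2 : c • x = x := congrArg Subtype.val h1
    induction x using QuotientGroup.induction_on with
    | H g =>
      have h3 : (QuotientGroup.mk (c * g) : G ⧸ Q) = QuotientGroup.mk g := h2
      rw [QuotientGroup.eq] at h3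
      -- h3 : (c * g)⁻¹ * g ∈ Q
      have hy1 : (c * g)⁻¹ * g ≠ 1 := by
        intro h
        apply hc1
        have h4 : (c * g)⁻¹ * g = g⁻¹ * c⁻¹ * g := by group
        rw [h4] at h
        have h5 : c⁻¹ = 1 := by
          have h6 : c⁻¹ = g * (g⁻¹ * c⁻¹ * g) * g⁻¹ := by group
          rw [h6, h]; group
        exact inv_eq_one.1 h5
      have hyr : ((c * g)⁻¹ * g) ^ r = 1 := by
        have h4 : (c * g)⁻¹ * g = g⁻¹ * c⁻¹ * (g⁻¹)⁻¹ := by group
        rw [h4, conj_pow, inv_pow, hcr]; group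
      have hord : orderOf (⟨(c * g)⁻¹ * g, h3⟩ : ↥Q) = r := by
        apply orderOf_eq_prime
        · exact Subtype.ext hyr
        · intro h
          exact hy1 (congrArg Subtype.val h)
      apply hrQ
      rw [← hord]
      exact orderOf_dvd_natCard _
  have hzero : Nat.card ↥(MulAction.fixedPoints ↥(Subgroup.zpowers c) ↥S) = 0 :=
    Nat.card_of_isEmpty
  rw [hzero] at hmod
  have e : Nat.card {x : G ⧸ Q // a • x = x} = Nat.card ↥S :=
    Nat.card_congr (Equiv.subtypeEquivRight (fun x => Iff.rfl))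
  rw [e]
  exact (Nat.modEq_zero_iff_dvd).1 hmod

end Cfsg.Agent.Lib.Helper53.BTFREEDVD
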