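import Mathlib
import Cfsg.Agent.Lib.Helper19.BTGen

/-!
# S2369 / PARCARD: the order of a minimal parabolic subgroup
-/

set_option autoImplicit false

namespace Cfsg.Agent.Lib.Helper53.BTPARCARD

open Cfsg.Agent.Lib.Helper19.BTGen

universe u

theorem main : ParCard.{u} := by
  intro G _ _ B P s hPar hs
  classical
  have hdisj : Disjoint (fun g : G => g ∈ B) (fun g : G => ∃ b ∈ B, ∃ b' ∈ B, g = b * s * b') := by
    rw [disjoint_iff_inf_le]
    rintro g ⟨hg, b, hb, b', hb', hgb⟩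
    apply hs
    have e : s = b⁻¹ * g * b'⁻¹ := by rw [hgb]; group
    rw [e]
    exact B.mul_mem (B.mul_mem (B.inv_mem hb) hg) (B.inv_mem hb')
  have e1 : Nat.card P = Nat.card {g : G // g ∈ B ∨ ∃ b ∈ B, ∃ b' ∈ B, g = b * s * b'} :=
    Nat.card_congr (Equiv.subtypeEquivRight hPar)
  rw [e1, Nat.card_congr (subtypeOrEquiv _ _ hdisj), Nat.card_sum]

end Cfsg.Agent.Lib.Helper53.BTPARCARD
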