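import Mathlib
import Cfsg.Agent.Lib.Helper19.BTGen

/-!
# S2369 / RANKONE: the union of `B` and `B s B` is a subgroup
-/

set_option autoImplicit false

namespace Cfsg.Agent.Lib.Helper53.BTRANKONE

open Cfsg.Agent.Lib.Helper19.BTGen

universe u

theorem main : RankOne.{u} := by
  intro G _ B s hss hex
  refine ⟨{ carrier := {g | g ∈ B ∨ ∃ b ∈ B, ∃ b' ∈ B, g = b * s * b'}
            mul_mem' := ?_
            one_mem' := Or.inl B.one_mem
            inv_mem' := ?_ }, fun g => Iff.rfl⟩
  · rintro g h (hg | ⟨b, hb, b', hb', rfl⟩) (hh | ⟨c, hc, c', hc', rfl⟩)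
    · exact Or.inl (B.mul_mem hg hh)
    · refine Or.inr ⟨g * c, B.mul_mem hg hc, c', hc', ?_⟩
      group
    · refine Or.inr ⟨b, hb, b' * h, B.mul_mem hb' hh, ?_⟩
      group
    · rcases hex (b' * c) (B.mul_mem hb' hc) with h1 | ⟨d, hd, d', hd', h1⟩
      · left
        have e : b * s * b' * (c * s * c') = b * (s * (b' * c) * s) * c' := by group
        show b * s * b' * (c * s * c') ∈ B
        rw [e]
        exact B.mul_mem (B.mul_mem hb h1) hc'
      · right
        refine ⟨b * d, B.mul_mem hb hd, d' * c', B.mul_mem hd' hc', ?_⟩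
        have e : b * s * b' * (c * s * c') = b * (s * (b' * c) * s) * c' := by group
        rw [e, h1]
        group
  · rintro g (hg | ⟨b, hb, b', hb', rfl⟩)
    · exact Or.inl (B.inv_mem hg)
    · right
      refine ⟨b'⁻¹, B.inv_mem hb', (s * s)⁻¹ * b⁻¹, B.mul_mem (B.inv_mem hss) (B.inv_mem hb), ?_⟩
      group

end Cfsg.Agent.Lib.Helper53.BTRANKONE
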