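import Mathlib
import Cfsg.Agent.Lib.Helper19.BTGen

/-!
# S2369 / SYLCONJ: an involution is conjugate into a subgroup of 2-power order and odd index
-/

set_option autoImplicit false

namespace Cfsg.Agent.Lib.Helper53.BTSYLCONJ

open Cfsg.Agent.Lib.Helper19.BTGen

universe u

theorem main : SylConj.{u} := by
  intro G _ _ U k hU hidx a ha
  haveI : Fact (Nat.Prime 2) := ⟨Nat.prime_two⟩
  have hUp : IsPGroup 2 U := IsPGroup.of_card hU
  have hS : ((hUp.toSylow hidx : Sylow 2 G) : Subgroup G) = U := rfl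
  have hap : IsPGroup 2 (Subgroup.zpowers a) :=
    IsPGroup.of_card (n := 1) (by rw [Nat.card_zpowers, ha]; rfl)
  obtain ⟨Q, hQ⟩ := hap.exists_le_sylow
  obtain ⟨g, hg⟩ := MulAction.exists_smul_eq G Q (hUp.toSylow hidx)
  refine ⟨g, ?_⟩
  have haQ : a ∈ (Q : Subgroup G) := hQ (Subgroup.mem_zpowers a)
  have h2 := Subgroup.smul_mem_pointwise_smul a (MulAut.conj g) (Q : Subgroup G) haQ
  rw [← Sylow.coe_subgroup_smul, hg, hS] at h2
  simpa [MulAut.smul_def] using h2

end Cfsg.Agent.Lib.Helper53.BTSYLCONJ
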