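import Mathlib
import Cfsg.Agent.Lib.Helper30.CTIStmt
import Cfsg.Agent.S1224

/-!
# S4064 piece DCARD (helper30's call): `|D_u| = nInv H` and `u` inverts `D_u`.
-/

set_option autoImplicit false
universe u

namespace Cfsg.Agent.Lib.Helper53.CTIDCARD

open Cfsg.Agent.Lib.Helper30.CTIStmt

theorem ord_conj' {G : Type u} [Group G] (g t : G) : orderOf (g * t * g⁻¹) = orderOf t := by
  have h := (MulAut.conj g).orderOf_eq t
  rwa [MulAut.conj_apply] at h

theorem inv_sq {G : Type u} [Group G] (w : G) (hw : orderOf w = 2) : w * w = 1 := by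
  have h := pow_orderOf_eq_one w
  rwa [hw, sq] at h

theorem main : DCARD.{u} := by
  intro G _ _ M hcc hse heven u hu2 huH hDM
  have huu : u * u = 1 := inv_sq u hu2
  have huu' : ∀ x : G, u * (u * x) = x := fun x => by rw [← mul_assoc, huu, one_mul]
  have huinv : u⁻¹ = u := inv_eq_of_mul_eq_one_left huu
  obtain ⟨t, ht⟩ := exists_prime_orderOf_dvd_card' 2 (even_iff_two_dvd.mp heven)
  have ht2 : orderOf (t : G) = 2 := by rw [Subgroup.orderOf_coe]; exact ht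
  have ht1 : (t : G) ≠ 1 := by
    intro h
    rw [h, orderOf_one] at ht2
    omega
  have hMle : M ≤ NM M := Subgroup.le_normalizer
  have hxy : ((1 : G) : G ⧸ NM M) ≠ ((u : G) : G ⧸ NM M) := by
    intro h
    rw [QuotientGroup.eq] at h
    apply huH
    simpa using h
  have hW := Cfsg.Agent.S1224.result (NM M) hse _ _ hxy
  have hf : ∀ w : G, orderOf w = 2 → w • ((1 : G) : G ⧸ NM M) = ((u : G) : G ⧸ NM M) →
      (u⁻¹ * w ∈ DU (NM M) u ∧ u * (u⁻¹ * w) * u⁻¹ = (u⁻¹ * w)⁻¹) := by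
    intro w hw2 hw
    have hww : w * w = 1 := inv_sq w hw2
    have hwinv : w⁻¹ = w := inv_eq_of_mul_eq_one_left hww
    have h1 : (w * 1)⁻¹ * u ∈ NM M := by
      rw [MulAction.Quotient.smul_mk] at hw
      exact QuotientGroup.eq.1 hw
    have hd : u⁻¹ * w ∈ NM M := by
      have h2 := (NM M).inv_mem h1
      have e : ((w * 1)⁻¹ * u)⁻¹ = u⁻¹ * w := by group
      rwa [e] at h2
    have hinv : u * (u⁻¹ * w) * u⁻¹ = (u⁻¹ * w)⁻¹ := by
      rw [mul_inv_rev, inv_inv, hwinv, huinv]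
      simp [mul_assoc, huu']
    refine ⟨⟨hd, ?_⟩, hinv⟩
    refine ⟨(u⁻¹ * w)⁻¹, (NM M).inv_mem hd, ?_⟩
    show u * (u⁻¹ * w)⁻¹ * u⁻¹ = u⁻¹ * w
    rw [← hinv, huinv]
    simp [mul_assoc, huu', huu]
  -- the three injections
  have h1 : Nat.card {i : G // orderOf i = 2 ∧ i • ((1 : G) : G ⧸ NM M) = ((u : G) : G ⧸ NM M)}
      ≤ Nat.card {d : G // d ∈ DU (NM M) u ∧ u * d * u⁻¹ = d⁻¹} := by
    apply Nat.card_le_card_of_injective
      (fun w : {i : G // orderOf i = 2 ∧ i • ((1 : G) : G ⧸ NM M) = ((u : G) : G ⧸ NM M)} =>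
        (⟨u⁻¹ * w.1, hf w.1 w.2.1 w.2.2⟩ : {d : G // d ∈ DU (NM M) u ∧ u * d * u⁻¹ = d⁻¹}))
    intro w w' h
    have h' : u⁻¹ * w.1 = u⁻¹ * w'.1 := congrArg Subtype.val h
    exact Subtype.ext (mul_left_cancel h')
  have hincl : Function.Injective
      (fun e : {d : G // d ∈ DU (NM M) u ∧ u * d * u⁻¹ = d⁻¹} =>
        (⟨e.1, e.2.1⟩ : ↥(DU (NM M) u))) := by
    intro e e' h
    exact Subtype.ext (congrArg (fun x : ↥(DU (NM M) u) => (x : G)) h)
  have h2 : Nat.card {d : G // d ∈ DU (NM M) u ∧ u * d * u⁻¹ = d⁻¹} ≤ Nat.card (DU (NM M) u) :=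
    Nat.card_le_card_of_injective _ hincl
  have hg : ∀ d : G, d ∈ DU (NM M) u → orderOf (d * (t : G) * d⁻¹) = 2 ∧ d * (t : G) * d⁻¹ ∈ NM M := by
    intro d hd
    refine ⟨by rw [ord_conj', ht2], hMle ?_⟩
    exact (Subgroup.mem_normalizer_iff.mp hd.1 (t : G)).mp t.2
  have h3 : Nat.card (DU (NM M) u) ≤ Nat.card {s : G // orderOf s = 2 ∧ s ∈ NM M} := by
    apply Nat.card_le_card_of_injective
      (fun d : ↥(DU (NM M) u) =>
        (⟨(d : G) * (t : G) * (d : G)⁻¹, hg d.1 d.2⟩ : {s : G // orderOf s = 2 ∧ s ∈ NM M}))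
    intro d d' h
    have h' : (d : G) * (t : G) * (d : G)⁻¹ = (d' : G) * (t : G) * (d' : G)⁻¹ :=
      congrArg Subtype.val h
    have hk : (d' : G)⁻¹ * (d : G) ∈ DU (NM M) u := (DU (NM M) u).mul_mem ((DU (NM M) u).inv_mem d'.2) d.2
    have hcomm : (t : G) * ((d' : G)⁻¹ * (d : G)) = (d' : G)⁻¹ * (d : G) * (t : G) := by
      calc (t : G) * ((d' : G)⁻¹ * (d : G))
          = (d' : G)⁻¹ * ((d' : G) * (t : G) * (d' : G)⁻¹) * (d : G) := by group
        _ = (d' : G)⁻¹ * ((d : G) * (t : G) * (d : G)⁻¹) * (d : G) := by rw [h']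
        _ = (d' : G)⁻¹ * (d : G) * (t : G) := by group
    have hkM : (d' : G)⁻¹ * (d : G) ∈ M := by
      apply hcc (t : G) t.2 ht1
      rw [Subgroup.mem_centralizer_iff]
      intro h hh
      rw [Set.mem_singleton_iff] at hh
      rw [hh]
      exact hcomm
    have hk1 : (d' : G)⁻¹ * (d : G) ∈ DU (NM M) u ⊓ M := ⟨hk, hkM⟩
    rw [hDM, Subgroup.mem_bot] at hk1
    apply Subtype.ext
    have : (d : G) = (d' : G) := by
      calc (d : G) = (d' : G) * ((d' : G)⁻¹ * (d : G)) := by group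
        _ = (d' : G) := by rw [hk1, mul_one]
    exact this
  have hcardD : Nat.card (DU (NM M) u) = nInv (NM M) := by
    apply le_antisymm h3
    calc nInv (NM M) = Nat.card {i : G // orderOf i = 2 ∧
          i • ((1 : G) : G ⧸ NM M) = ((u : G) : G ⧸ NM M)} := hW.symm
      _ ≤ _ := h1
      _ ≤ _ := h2
  refine ⟨hcardD, ?_⟩
  have hbij := Function.Injective.bijective_of_nat_card_le hincl (by
    rw [hcardD]
    calc nInv (NM M) = Nat.card {i : G // orderOf i = 2 ∧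
          i • ((1 : G) : G ⧸ NM M) = ((u : G) : G ⧸ NM M)} := hW.symm
      _ ≤ _ := h1)
  intro d hd
  obtain ⟨e, he⟩ := hbij.2 ⟨d, hd⟩
  have hed : e.1 = d := congrArg (fun x : ↥(DU (NM M) u) => (x : G)) he
  rw [← hed]
  exact e.2.2

end Cfsg.Agent.Lib.Helper53.CTIDCARD
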