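import Mathlib
import Cfsg.Agent.Lib.Helper40.GFStmt
import Cfsg.Agent.Lib.Helper40.KStr

/-!
# S5886 / DUALREP (call by helper40)

Every `F`-functional on `V k L` is `τ ∘ φ` for an `L`-functional `φ`.
-/

set_option autoImplicit false

universe u

namespace Cfsg.Agent.Lib.Helper53.GFDUALREP

open Cfsg.Agent.Lib.Helper40.GFStmt

theorem main : DualRep.{u} := by
  intro F L _ _ _ _ k τ hτ χ
  classical
  have h : ∀ i : Fin k, ∃ ci : L, ∀ a : L, χ (Pi.single i a) = τ (a * ci) := by
    intro i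
    obtain ⟨ci, hci⟩ := Cfsg.Agent.Lib.Helper40.KStr.exists_rep τ hτ
      (χ ∘ₗ LinearMap.single F (fun _ : Fin k => L) i)
    exact ⟨ci, fun a => hci a⟩
  choose cc hcc using h
  refine ⟨∑ i : Fin k, cc i • (LinearMap.proj i : V k L →ₗ[L] L), fun x => ?_⟩
  have hx : x = ∑ i : Fin k, Pi.single i (x i) := (Finset.univ_sum_single x).symm
  conv_lhs => rw [hx]
  rw [map_sum, LinearMap.sum_apply, map_sum]
  apply Finset.sum_congr rfl
  intro i _
  rw [hcc, LinearMap.smul_apply, LinearMap.proj_apply, smul_eq_mul, mul_comm]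

end Cfsg.Agent.Lib.Helper53.GFDUALREP
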