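import Mathlib
import Cfsg.Agent.Lib.Helper40.GFStmt
import Cfsg.Agent.Lib.Helper40.KStr

/-!
# S5886 / R2SPECIAL (call by helper40)

`[L : F] = 2`, `E(ν) ∈ c.M` with `ν` not a multiplication: `c.M` contains a special transvection.
-/

set_option autoImplicit false

universe u

namespace Cfsg.Agent.Lib.Helper53.GFR2SPECIAL

open Cfsg.Agent.Lib.Helper40.GFStmt

theorem main : R2Special.{u} := by
  intro F L _ _ _ _ k c hr τ hτ v ψ ν hv hψ0 hψv hν hsig
  classical
  have hfd : FiniteDimensional F L := Module.Finite.of_finite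
  -- `ν' = ν - m_(ν 1)`
  obtain ⟨ν', hν'⟩ : ∃ ν' : L →ₗ[F] L, ν' = ν - LinearMap.mulLeft F (ν 1) := ⟨_, rfl⟩
  have hsig' : InSig c v ψ ν' := by
    rw [hν']
    exact inSig_sub c v ψ hψv hsig (inSig_mulLeft c v ψ hψv (ν 1))
  have hν'1 : ν' 1 = 0 := by
    rw [hν', LinearMap.sub_apply, LinearMap.mulLeft_apply, mul_one, sub_self]
  have hν'0 : ν' ≠ 0 := by
    intro h0
    apply hν (ν 1)
    rw [hν'] at h0
    exact sub_eq_zero.mp h0
  obtain ⟨x₁, hx₁⟩ : ∃ x₁, ν' x₁ ≠ 0 := by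
    by_contra h
    push Not at h
    exact hν'0 (LinearMap.ext fun a => by rw [h a]; rfl)
  obtain ⟨z', hz'⟩ : ∃ z' : L, z' = ν' x₁ := ⟨_, rfl⟩
  have hz'0 : z' ≠ 0 := by rw [hz']; exact hx₁
  -- the range of `ν'` is the line through `z'`
  have hrange : ∀ x, ∃ s : F, ν' x = s • z' := by
    have h1 := LinearMap.finrank_range_add_finrank_ker ν'
    rw [hr] at h1
    have h2 : 0 < Module.finrank F (LinearMap.ker ν') := by
      rw [Module.finrank_pos_iff_exists_ne_zero]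
      exact ⟨⟨1, LinearMap.mem_ker.mpr hν'1⟩, fun h => one_ne_zero (congrArg Subtype.val h)⟩
    have h3 : Submodule.span F ({z'} : Set L) ≤ LinearMap.range ν' := by
      rw [Submodule.span_singleton_le_iff_mem, hz']
      exact LinearMap.mem_range_self ν' x₁
    have h4 : Module.finrank F (Submodule.span F ({z'} : Set L)) = 1 :=
      finrank_span_singleton hz'0
    have h5 : Submodule.span F ({z'} : Set L) = LinearMap.range ν' :=
      Submodule.eq_of_le_of_finrank_le h3 (by omega)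
    intro x
    have h6 : ν' x ∈ Submodule.span F ({z'} : Set L) := by
      rw [h5]
      exact LinearMap.mem_range_self ν' x
    obtain ⟨s, hs⟩ := Submodule.mem_span_singleton.mp h6
    exact ⟨s, hs.symm⟩
  -- a functional `lam` with `lam z' = 1`
  obtain ⟨a, ha⟩ : ∃ a, τ a ≠ 0 := by
    by_contra h
    push Not at h
    exact hτ (LinearMap.ext fun a => by rw [h a]; rfl)
  obtain ⟨lam, hlam⟩ : ∃ lam : L →ₗ[F] F, lam z' = 1 := by
    refine ⟨(τ a)⁻¹ • (τ ∘ₗ LinearMap.mulLeft F (a / z')), ?_⟩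
    rw [LinearMap.smul_apply, LinearMap.comp_apply, LinearMap.mulLeft_apply,
      div_mul_cancel₀ _ hz'0, smul_eq_mul, inv_mul_cancel₀ ha]
  obtain ⟨b', hb'⟩ : ∃ b' : L →ₗ[F] F, b' = lam ∘ₗ ν' := ⟨_, rfl⟩
  have hνb : ∀ x, ν' x = b' x • z' := by
    intro x
    obtain ⟨s, hs⟩ := hrange x
    rw [hb', LinearMap.comp_apply, hs, map_smul, hlam, smul_eq_mul, mul_one]
  obtain ⟨cb, hcb⟩ := Cfsg.Agent.Lib.Helper40.KStr.exists_rep τ hτ b'
  have hcb0 : cb ≠ 0 := by
    rintro rfl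
    have h1 := hνb x₁
    rw [hcb, mul_zero, map_zero, zero_smul] at h1
    exact hx₁ h1
  obtain ⟨e, heM, he⟩ := hsig'
  refine ⟨e, heM, z' • v, cb • ψ, smul_ne_zero hz'0 hv, smul_ne_zero hcb0 hψ0, ?_, ?_⟩
  · rw [LinearMap.smul_apply, map_smul, hψv, smul_zero, smul_zero]
  · intro x
    rw [he, hνb, LinearMap.smul_apply, smul_eq_mul, mul_comm cb, ← hcb, smul_assoc]

end Cfsg.Agent.Lib.Helper53.GFR2SPECIAL
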