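import Mathlib
import Cfsg.Agent.Lib.Helper40.HPStmt

set_option autoImplicit false

/-! S5974 piece NDARITHJ (helper53): arithmetic of `r ∣ (q^(d-t) - 1)(q^(d-t-1) + 1)`. -/

namespace Cfsg.Agent.Lib.Helper53.HPNDARITHJ

open Cfsg.Agent.Lib.Helper40.HPStmt
open Cfsg.Agent.Lib.Helper37.HypStmt (cc)

theorem main : NdArithJ := by
  intro q d h t r hr hr2 hrq hth hhd hdvd
  have : Fact r.Prime := ⟨hr⟩
  have hq1 : 1 ≤ q := by
    rcases Nat.eq_zero_or_pos q with h0 | h0
    · exact absurd (h0 ▸ dvd_zero r) hrq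
    · exact h0
  have hcase : ((q : ZMod r) ^ (d - t) = 1) ∨ ((q : ZMod r) ^ (d - t - 1) = -1) := by
    rcases (Nat.Prime.dvd_mul hr).1 hdvd with h' | h'
    · left
      have h1 : ((q ^ (d - t) - 1 : ℕ) : ZMod r) = 0 := (ZMod.natCast_eq_zero_iff _ _).2 h'
      rw [Nat.cast_sub (Nat.one_le_pow _ _ hq1), Nat.cast_pow, Nat.cast_one,
        sub_eq_zero] at h1
      exact h1
    · right
      have h1 : ((q ^ (d - t - 1) + 1 : ℕ) : ZMod r) = 0 := (ZMod.natCast_eq_zero_iff _ _).2 h'
      rw [Nat.cast_add, Nat.cast_pow, Nat.cast_one] at h1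
      exact eq_neg_of_add_eq_zero_left h1
  have hA : (q : ZMod r) ^ (d - t) = 1 → orderOf ((q : ℕ) : ZMod r) ∣ d - t :=
    fun h' => orderOf_dvd_of_pow_eq_one h'
  have hB : (q : ZMod r) ^ (d - t - 1) = -1 →
      Even (orderOf ((q : ℕ) : ZMod r)) ∧ orderOf ((q : ℕ) : ZMod r) ∣ 2 * (d - t - 1) ∧
        ¬ orderOf ((q : ℕ) : ZMod r) ∣ d - t - 1 := by
    intro h'
    have hne : (-1 : ZMod r) ≠ 1 := by
      have : Fact (2 < r) := ⟨lt_of_le_of_ne hr.two_le (Ne.symm hr2)⟩
      exact ZMod.neg_one_ne_one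
    have hnd : ¬ orderOf (q : ZMod r) ∣ d - t - 1 := by
      intro hd
      rw [orderOf_dvd_iff_pow_eq_one, h'] at hd
      exact hne hd
    have h2 : orderOf (q : ZMod r) ∣ 2 * (d - t - 1) := by
      apply orderOf_dvd_of_pow_eq_one
      rw [mul_comm, pow_mul, h']
      norm_num
    refine ⟨?_, h2, hnd⟩
    by_contra hodd
    rw [Nat.not_even_iff_odd] at hodd
    exact hnd ((Nat.Coprime.dvd_mul_left hodd.coprime_two_right).1 h2)
  unfold NDivC
  generalize orderOf ((q : ℕ) : ZMod r) = i at hA hB ⊢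
  rcases hcase with hc | hc
  · obtain ⟨s, hs⟩ := hA hc
    have hd : d = t + i * s := by omega
    constructor
    · intro hodd
      have hcc : cc i = 2 * i := by
        unfold cc; rw [if_neg (Nat.not_even_iff_odd.mpr hodd)]
      rw [hcc]
      by_cases hle : 2 * i ≤ 2 * h
      · left; exact hle
      · right
        have e : 2 * d = 2 * t + (2 * i) * s := by rw [hd]; ring
        rw [e, Nat.add_mul_mod_self_left, Nat.mod_eq_of_lt (by omega)]
        omega
    · intro _
      by_cases hle : i ≤ 2 * h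
      · left; exact hle
      · right; right; left
        have e : 2 * d = 2 * t + i * (2 * s) := by rw [hd]; ring
        rw [e, Nat.add_mul_mod_self_left, Nat.mod_eq_of_lt (by omega)]
        omega
  · obtain ⟨heven, ⟨k, hk⟩, hnd⟩ := hB hc
    constructor
    · intro hodd
      exact absurd heven (Nat.not_even_iff_odd.mpr hodd)
    · intro _
      by_cases hle : i ≤ 2 * h
      · left; exact hle
      · have hkodd : Odd k := by
          by_contra hke
          rw [Nat.not_odd_iff_even] at hke
          obtain ⟨k', hk'⟩ := hke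
          apply hnd
          refine ⟨k', ?_⟩
          have h3 : 2 * (d - t - 1) = 2 * (i * k') := by rw [hk, hk']; ring
          omega
        obtain ⟨s, hs⟩ := hkodd
        have e : 2 * d = (2 * t + 2) + i * (2 * s + 1) := by
          have h3 : 2 * (d - t - 1) = i * (2 * s + 1) := by rw [hk, hs]
          omega
        have hmod : (2 * d) % i = 2 * t + 2 := by
          rw [e, Nat.add_mul_mod_self_left, Nat.mod_eq_of_lt (by omega)]
        have hdiv : (2 * d) / i = 2 * s + 1 := by
          rw [e, Nat.add_mul_div_left _ _ (by omega), Nat.div_eq_of_lt (by omega), zero_add]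
        rcases Nat.lt_or_ge (2 * t + 2) (2 * h) with hlt | hge
        · right; right; left; rw [hmod]; exact hlt
        · right; right; right
          exact ⟨by rw [hmod]; omega, by rw [hdiv]; exact ⟨s, by ring⟩⟩

end Cfsg.Agent.Lib.Helper53.HPNDARITHJ
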