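import Mathlib
import Cfsg.Agent.Lib.Helper27.JzStmt

/-!
# S5403 / A5M: a subgroup of the orthogonal group containing the three matrices and centralising
the first is, modulo the powers of the first, the alternating group of degree five
-/

set_option autoImplicit false

namespace Cfsg.Agent.Lib.Helper53.JzA5M

open Cfsg Cfsg.Agent.Lib.Helper27.OzStmt Cfsg.Agent.Lib.Helper27.JzStmt

theorem M5 : matOf acode * matOf acode * matOf acode * matOf acode * matOf acode = 1 := by
  decide +kernel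

theorem Mne : matOf acode ≠ 1 := by decide +kernel

theorem Xne : (1 : M8) ≠ matOf xcode ∧ matOf acode ≠ matOf xcode ∧
    matOf acode * matOf acode ≠ matOf xcode ∧
    matOf acode * matOf acode * matOf acode ≠ matOf xcode ∧
    matOf acode * matOf acode * matOf acode * matOf acode ≠ matOf xcode := by
  decide +kernel

theorem R1 : matOf xcode * matOf ycode * matOf ycode * matOf xcode =
    matOf ycode * matOf xcode * matOf ycode := by decide +kernel

theorem R2 : matOf ycode * matOf xcode * matOf xcode * matOf ycode =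
    matOf xcode * matOf ycode * matOf xcode := by decide +kernel

/-- the matrix of an element of the orthogonal group -/
def cm (g : O8) : M8 := ((g : Matrix.GeneralLinearGroup I8 (ZMod 2)) : M8)

theorem cm_mul (a b : O8) : cm (a * b) = cm a * cm b := rfl

theorem cm_one : cm 1 = 1 := rfl

theorem cm_inj {a b : O8} (h : cm a = cm b) : a = b := Subtype.ext (Units.ext h)

theorem main (hCent : Cent) (hRecog : Recog) : A5M := by
  intro Y m x y hm hx hy hmY hxY hyY hcomm
  have hm' : cm m = matOf acode := hm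
  have hx' : cm x = matOf xcode := hx
  have hy' : cm y = matOf ycode := hy
  have hm5 : m * m * m * m * m = 1 := by
    apply cm_inj
    rw [cm_mul, cm_mul, cm_mul, cm_mul, cm_one, hm']
    exact M5
  have hm1 : m ≠ 1 := by
    intro h
    have h2 := congrArg cm h
    rw [hm', cm_one] at h2
    exact Mne h2
  have hm5' : m ^ 5 = 1 := by rw [← hm5]; simp [pow_succ]
  have hord : orderOf m = 5 := by
    have : Fact (Nat.Prime 5) := ⟨by norm_num⟩
    exact orderOf_eq_prime hm5' hm1
  have hr1 : x * y * y * x = y * x * y := by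
    apply cm_inj
    rw [cm_mul, cm_mul, cm_mul, cm_mul, cm_mul, hx', hy']
    exact R1
  have hr2 : y * x * x * y = x * y * x := by
    apply cm_inj
    rw [cm_mul, cm_mul, cm_mul, cm_mul, cm_mul, hx', hy']
    exact R2
  have hxN : x ∉ Subgroup.zpowers m := by
    classical
    intro hmem
    rw [mem_zpowers_iff_mem_range_orderOf, hord, Finset.mem_image] at hmem
    obtain ⟨i, hi, hix⟩ := hmem
    rw [Finset.mem_range] at hi
    obtain ⟨n0, n1, n2, n3, n4⟩ := Xne
    interval_cases i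
    · have e : (1 : O8) = x := by rw [← hix]; simp
      have h2 := congrArg cm e
      rw [cm_one, hx'] at h2
      exact n0 h2
    · have e : m = x := by rw [← hix]; simp
      have h2 := congrArg cm e
      rw [hm', hx'] at h2
      exact n1 h2
    · have e : m * m = x := by rw [← hix]; simp [pow_succ]
      have h2 := congrArg cm e
      rw [cm_mul, hm', hx'] at h2
      exact n2 h2
    · have e : m * m * m = x := by rw [← hix]; simp [pow_succ]
      have h2 := congrArg cm e
      rw [cm_mul, cm_mul, hm', hx'] at h2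
      exact n3 h2
    · have e : m * m * m * m = x := by rw [← hix]; simp [pow_succ]
      have h2 := congrArg cm e
      rw [cm_mul, cm_mul, cm_mul, hm', hx'] at h2
      exact n4 h2
  have hzc : ∀ n ∈ Subgroup.zpowers m, ∀ g ∈ Y, g * n = n * g := by
    intro n hn g hg
    obtain ⟨k, rfl⟩ := Subgroup.mem_zpowers_iff.mp hn
    exact (Commute.zpow_right (show Commute g m from hcomm g hg) k).eq
  have hN : ((Subgroup.zpowers m).subgroupOf Y).Normal := by
    constructor
    intro n hn g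
    rw [Subgroup.mem_subgroupOf] at hn ⊢
    have h1 := hzc (n : O8) hn (g : O8) g.2
    have h2 : ((g * n * g⁻¹ : ↥Y) : O8) = (n : O8) := by
      push_cast
      rw [h1, mul_assoc, mul_inv_cancel, mul_one]
    rw [h2]; exact hn
  have hYle : Y ≤ Subgroup.centralizer ({m} : Set O8) := by
    intro g hg
    rw [Subgroup.mem_centralizer_iff]
    intro h hh
    rw [Set.mem_singleton_iff] at hh
    subst hh
    exact (hcomm g hg).symm
  have hcardY : Nat.card ↥Y ≤ 300 :=
    le_trans (Subgroup.card_le_of_le hYle) (hCent m hm)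
  have hcardN : Nat.card ↥((Subgroup.zpowers m).subgroupOf Y) = 5 := by
    have hle : Subgroup.zpowers m ≤ Y := (Subgroup.zpowers_le).2 hmY
    rw [Nat.card_congr (Subgroup.subgroupOfEquivOfLe hle).toEquiv, Nat.card_zpowers, hord]
  refine ⟨(Subgroup.zpowers m).subgroupOf Y, hN, fun g => Iff.rfl, ?_⟩
  have := hN
  apply hRecog ↥Y ((Subgroup.zpowers m).subgroupOf Y) hcardY hcardN
  have e1 : (⟨x, hxY⟩ : ↥Y) * ⟨y, hyY⟩ * ⟨y, hyY⟩ * ⟨x, hxY⟩ =
      (⟨y, hyY⟩ : ↥Y) * ⟨x, hxY⟩ * ⟨y, hyY⟩ := Subtype.ext hr1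
  have e2 : (⟨y, hyY⟩ : ↥Y) * ⟨x, hxY⟩ * ⟨x, hxY⟩ * ⟨y, hyY⟩ =
      (⟨x, hxY⟩ : ↥Y) * ⟨y, hyY⟩ * ⟨x, hxY⟩ := Subtype.ext hr2
  have hx'N : (⟨x, hxY⟩ : ↥Y) ∉ (Subgroup.zpowers m).subgroupOf Y := by
    rw [Subgroup.mem_subgroupOf]; exact hxN
  generalize (⟨x, hxY⟩ : ↥Y) = x' at e1 e2 hx'N ⊢
  generalize (⟨y, hyY⟩ : ↥Y) = y' at e1 e2 ⊢
  refine ⟨x', y', y'⁻¹, y'⁻¹ * x'⁻¹, x'⁻¹, x'⁻¹ * y'⁻¹, hx'N, ?_, ?_, ?_, ?_, ?_, ?_⟩
  · exact inv_mem (Subgroup.subset_closure (by simp))
  · exact mul_mem (inv_mem (Subgroup.subset_closure (by simp)))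
      (inv_mem (Subgroup.subset_closure (by simp)))
  · exact inv_mem (Subgroup.subset_closure (by simp))
  · exact mul_mem (inv_mem (Subgroup.subset_closure (by simp)))
      (inv_mem (Subgroup.subset_closure (by simp)))
  · have h : x'⁻¹ * (y'⁻¹ * (y'⁻¹ * x'⁻¹) * y'⁻¹⁻¹ * (y'⁻¹ * x'⁻¹)⁻¹) =
        (x' * y' * y' * x')⁻¹ * (y' * x' * y') := by group
    rw [h, e1, inv_mul_cancel]
    exact one_mem _
  · have h : y'⁻¹ * (x'⁻¹ * (x'⁻¹ * y'⁻¹) * x'⁻¹⁻¹ * (x'⁻¹ * y'⁻¹)⁻¹) =
        (y' * x' * x' * y')⁻¹ * (x' * y' * x') := by group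
    rw [h, e2, inv_mul_cancel]
    exact one_mem _

end Cfsg.Agent.Lib.Helper53.JzA5M
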