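import Mathlib
import Cfsg.Agent.Lib.Helper27.JzStmt

/-!
# S5403 / GLOC3: the two witnesses in the centraliser of `a`
-/

set_option autoImplicit false

namespace Cfsg.Agent.Lib.Helper53.JzGLOC3

open Cfsg Cfsg.Agent.Lib.Helper27.OzStmt Cfsg.Agent.Lib.Helper27.JzStmt

theorem aux {G : Type} [Group G] (z T1 h : G) (hz : ∀ x, z * x = x * z) :
    h * (z * T1) * h⁻¹ * (z * T1)⁻¹ = h * T1 * h⁻¹ * T1⁻¹ := by
  have e : h * (z * T1) * h⁻¹ * (z * T1)⁻¹ = h * z * (T1 * h⁻¹ * T1⁻¹) * z⁻¹ := by group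
  rw [e]
  calc h * z * (T1 * h⁻¹ * T1⁻¹) * z⁻¹ = z * h * (T1 * h⁻¹ * T1⁻¹) * z⁻¹ := by rw [← hz h]
    _ = z * (h * (T1 * h⁻¹ * T1⁻¹)) * z⁻¹ := by rw [mul_assoc z]
    _ = (h * (T1 * h⁻¹ * T1⁻¹)) * z * z⁻¹ := by rw [hz (h * (T1 * h⁻¹ * T1⁻¹))]
    _ = h * T1 * h⁻¹ * T1⁻¹ := by group

theorem key {G : Type} [Group G] (z T1 T2 h : G) (hz : ∀ x, z * x = x * z)
    (hT2 : T2 = h * T1 * h⁻¹)
    (hc : (h * (z * T1) * h⁻¹ * (z * T1)⁻¹) * (z * T1) =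
      (z * T1) * (h * (z * T1) * h⁻¹ * (z * T1)⁻¹)) : T1 * T2 = T2 * T1 := by
  rw [aux z T1 h hz, ← hT2] at hc
  have h1 : T2 * T1⁻¹ * (z * T1) = z * T2 := by
    rw [← mul_assoc, ← hz (T2 * T1⁻¹), mul_assoc z, inv_mul_cancel_right]
  have h2 : z * T1 * (T2 * T1⁻¹) = z * (T1 * T2 * T1⁻¹) := by group
  rw [h1, h2] at hc
  have h3 := mul_left_cancel hc
  calc T1 * T2 = T1 * T2 * T1⁻¹ * T1 := by group
    _ = T2 * T1 := by rw [← h3]

theorem main : GLoc3 := by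
  intro G _ _ t n a K φ ha hJ
  obtain ⟨g, h, hga, hha, hht, ⟨x, hxg, hφx⟩, hfus⟩ := hJ.fus
  have ctx := hJ.ctx
  obtain ⟨T1, hT1⟩ : ∃ T1, T1 = g * t * g⁻¹ := ⟨_, rfl⟩
  rw [← hT1] at hfus hxg
  obtain ⟨T2, hT2⟩ : ∃ T2, T2 = h * T1 * h⁻¹ := ⟨_, rfl⟩
  rw [← hT2] at hfus
  have htsq := ctx.t_sq
  have hT1sq : T1 * T1 = 1 := by
    rw [hT1]
    calc g * t * g⁻¹ * (g * t * g⁻¹) = g * (t * t) * g⁻¹ := by group
      _ = 1 := by rw [htsq]; group
  have hT2sq : T2 * T2 = 1 := by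
    rw [hT2]
    calc h * T1 * h⁻¹ * (h * T1 * h⁻¹) = h * (T1 * T1) * h⁻¹ := by group
      _ = 1 := by rw [hT1sq]; group
  have hT1a : T1 * a = a * T1 := by
    rw [hT1]
    exact (((show Commute g a from hga).mul_left (show Commute t a from ha)).mul_left
      (show Commute g a from hga).inv_left).eq
  have hnc : T1 * T2 ≠ T2 * T1 := by
    intro hc
    apply ctx.t_ne
    rw [← hfus]
    calc T1 * T2 * (T1 * T2) = T1 * (T2 * T1) * T2 := by group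
      _ = T1 * (T1 * T2) * T2 := by rw [hc]
      _ = (T1 * T1) * (T2 * T2) := by group
      _ = 1 := by rw [hT1sq, hT2sq, one_mul]
  have hT1t : T1 ≠ t := by
    intro e
    apply hnc
    have e2 : h * t * h⁻¹ = t := by rw [hht]; group
    rw [hT2, e, e2]
  have hncen : n ∈ Subgroup.center G := (ctx.center n).2 (Or.inr rfl)
  have hz_n : ∀ y, n * y = y * n := fun y => (Subgroup.mem_center_iff.1 hncen y).symm
  have hnn : n * n = 1 := by
    have h1 : n * n ∈ Subgroup.center G := mul_mem hncen hncen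
    rcases (ctx.center _).1 h1 with h2 | h2
    · exact h2
    · exfalso
      apply ctx.n_ne
      simpa using h2
  have hker := (ctx.ker x).1 hφx
  rw [hxg] at hker
  obtain ⟨z, q1, hz, hzc, hq1, hq1K, hq1t, hT1eq⟩ : ∃ z q1 : G, (∀ y, z * y = y * z) ∧
      z ∈ Subgroup.center G ∧ q1 = z * T1 ∧ q1 ∈ K ∧ q1 ≠ t ∧ T1 = q1 * z := by
    rcases hker with hk | hk
    · exact ⟨1, T1, by simp, one_mem _, by simp, hk, hT1t, by simp⟩
    · refine ⟨n, n * T1, hz_n, hncen, rfl, hk, ?_, ?_⟩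
      · intro e
        apply ctx.not_conj g
        rw [← hT1]
        calc T1 = n * n * T1 := by rw [hnn, one_mul]
          _ = n * (n * T1) := mul_assoc _ _ _
          _ = n * t := by rw [e]
      · calc T1 = n * n * T1 := by rw [hnn, one_mul]
          _ = n * (n * T1) := mul_assoc _ _ _
          _ = n * T1 * n := (hz_n _)
  have hq1a : q1 * a = a * q1 := by
    rw [hq1]
    exact ((show Commute z a from hz a).mul_left (show Commute T1 a from hT1a)).eq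
  have hq'mem : (⟨q1, mem_MA hq1a⟩ : ↥(MA a)) ∈ QA a K := by
    rw [Subgroup.mem_subgroupOf]
    refine ⟨hq1K, ?_⟩
    show q1 ∈ Subgroup.centralizer ({a} : Set G)
    rw [Subgroup.mem_centralizer_iff]
    intro y hy
    rw [Set.mem_singleton_iff] at hy
    subst hy
    exact hq1a.symm
  have hz'mem : (⟨z, mem_MA (hz a)⟩ : ↥(MA a)) ∈ ZA a := by
    rw [Subgroup.mem_subgroupOf]
    exact Subgroup.mem_sup_right hzc
  refine ⟨⟨toMA a h hha, Subtype.ext hht, ⟨q1, mem_MA hq1a⟩, hq'mem, ⟨q1, mem_MA hq1a⟩, hq'mem, ?_⟩,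
    ⟨toMA a g hga, ⟨q1, mem_MA hq1a⟩, hq'mem, ⟨z, mem_MA (hz a)⟩, hz'mem, Subtype.ext ?_, ?_⟩⟩
  · intro e
    have e' : h * q1 * h⁻¹ * q1⁻¹ * q1 = q1 * (h * q1 * h⁻¹ * q1⁻¹) := congrArg Subtype.val e
    rw [hq1] at e'
    exact hnc (key z T1 T2 h hz hT2 e')
  · show g * t * g⁻¹ = q1 * z
    rw [← hT1]
    exact hT1eq
  · intro e
    exact hq1t (congrArg Subtype.val e)

end Cfsg.Agent.Lib.Helper53.JzGLOC3
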