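import Mathlib
import Cfsg.Agent.S0157
import Cfsg.Agent.Lib.CT.NormOne

/-!
Permutation characters and the index of a subgroup: decomposition of a transitive permutation
character into irreducibles, the "Fisher" step (a point stabiliser of a small transitive action
is transitive on every 2-transitive set of larger size), and the existence of a non-linear
irreducible constituent.
-/

set_option autoImplicit false

namespace Cfsg.Agent.Lib.Helper53.MinIdxChar

open Cfsg Cfsg.Agent.Lib.CT Cfsg.Agent.Lib.CT.Wedderburn Cfsg.Agent.S0157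
open scoped ComplexConjugate

universe u w w'

variable {G : Type u} [Group G]

/-- the trivial irreducible character -/
noncomputable def triv (G : Type u) [Group G] : IrrCharacter G :=
  ⟨fun _ => 1, Cfsg.Agent.Lib.CT.Ops.isIrrCharacter_one⟩

theorem permChar_one (Ω : Type w) [MulAction G Ω] :
    permChar G Ω 1 = (Nat.card Ω : ℂ) := by
  unfold permChar
  rw [MulAction.fixedBy_one_eq_univ]
  congr 1
  exact Nat.card_congr (Equiv.Set.univ _)

theorem permChar_prod' (Ω : Type w) (X : Type w') [MulAction G Ω] [MulAction G X]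
    [Finite Ω] [Finite X] (g : G) :
    permChar G (Ω × X) g = permChar G Ω g * permChar G X g := by
  unfold permChar
  rw [← Nat.cast_mul, ← Nat.card_prod]
  congr 1
  refine Nat.card_congr ?_
  refine
    { toFun := fun p => (⟨p.1.1, ?_⟩, ⟨p.1.2, ?_⟩)
      invFun := fun q => ⟨(q.1.1, q.2.1), ?_⟩
      left_inv := fun p => rfl
      right_inv := fun q => rfl }
  · have := p.2
    rw [MulAction.mem_fixedBy] at this ⊢
    exact congrArg Prod.fst this
  · have := p.2
    rw [MulAction.mem_fixedBy] at this ⊢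
    exact congrArg Prod.snd this
  · rw [MulAction.mem_fixedBy]
    have h1 := q.1.2
    have h2 := q.2.2
    rw [MulAction.mem_fixedBy] at h1 h2
    exact Prod.ext h1 h2

theorem permChar_real (Ω : Type w) [MulAction G Ω] (g : G) :
    conj (permChar G Ω g) = permChar G Ω g := by
  simp [permChar]

theorem inner_perm [Fintype G] (Ω : Type w) (X : Type w') [MulAction G Ω] [MulAction G X]
    [Finite Ω] [Finite X] :
    classInner (permChar G Ω) (permChar G X)
      = (Nat.card (Quotient (MulAction.orbitRel G (Ω × X))) : ℂ) := by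
  have hcard : (Nat.card G : ℂ) ≠ 0 := by exact_mod_cast Nat.card_pos.ne'
  unfold classInner
  simp only [permChar_real]
  have : ∑ g : G, permChar G Ω g * permChar G X g = ∑ g : G, permChar G (Ω × X) g :=
    Finset.sum_congr rfl (fun g _ => (permChar_prod' Ω X g).symm)
  rw [this, sum_permChar, ← mul_assoc, mul_comm _ (Nat.card (Quotient _) : ℂ), mul_assoc,
    inv_mul_cancel₀ hcard, mul_one]

theorem inner_perm_one [Fintype G] (Ω : Type w) [MulAction G Ω] [Finite Ω]
    [MulAction.IsPretransitive G Ω] [Nonempty Ω] :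
    classInner (permChar G Ω) (fun _ => (1 : ℂ)) = 1 := by
  have hcard : (Nat.card G : ℂ) ≠ 0 := by exact_mod_cast Nat.card_pos.ne'
  have horb1 : Nat.card (Quotient (MulAction.orbitRel G Ω)) = 1 := by
    have hsub : Subsingleton (Quotient (MulAction.orbitRel G Ω)) :=
      (MulAction.pretransitive_iff_subsingleton_quotient G Ω).1 inferInstance
    have hne : Nonempty (Quotient (MulAction.orbitRel G Ω)) :=
      (inferInstance : Nonempty Ω).map (Quotient.mk _)
    exact Nat.card_unique
  unfold classInner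
  simp only [map_one, mul_one]
  rw [sum_permChar, horb1]
  simp

/-- decomposition of a transitive permutation character -/
theorem decomp [Fintype G] [Fintype (IrrCharacter G)] (Ω : Type w) [MulAction G Ω] [Finite Ω]
    [MulAction.IsPretransitive G Ω] [Nonempty Ω] :
    ∃ (m d : IrrCharacter G → ℕ),
      (∀ ψ : IrrCharacter G, classInner (permChar G Ω) (ψ : G → ℂ) = m ψ) ∧
      (∀ ψ : IrrCharacter G, (ψ : G → ℂ) 1 = d ψ) ∧
      m (triv G) = 1 ∧ d (triv G) = 1 ∧
      Nat.card Ω = ∑ ψ : IrrCharacter G, m ψ * d ψ := by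
  obtain ⟨m, hm, hexp⟩ := Cfsg.Agent.Lib.CT.NormOne.exists_mult_sum
    (permChar_isCharacter (G := G) (X := Ω))
  choose d hd using fun ψ : IrrCharacter G => char_exists_apply_one (isCharacter_of_irr ψ.2)
  refine ⟨m, d, hm, hd, ?_, ?_, ?_⟩
  · have := hm (triv G)
    rw [show ((triv G : IrrCharacter G) : G → ℂ) = fun _ => (1 : ℂ) from rfl,
      inner_perm_one] at this
    exact_mod_cast this.symm
  · have := hd (triv G)
    rw [show ((triv G : IrrCharacter G) : G → ℂ) 1 = (1 : ℂ) from rfl] at this
    exact_mod_cast this.symm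
  · have h1 := congrFun hexp 1
    rw [permChar_one, Finset.sum_apply] at h1
    have h2 : (Nat.card Ω : ℂ) = ((∑ ψ : IrrCharacter G, m ψ * d ψ : ℕ) : ℂ) := by
      rw [h1]
      push_cast
      refine Finset.sum_congr rfl (fun ψ _ => ?_)
      rw [Pi.smul_apply, smul_eq_mul, hd ψ]
    exact_mod_cast h2

/-- **Fisher-type step**: if `G` acts transitively on `Ω` and 2-transitively on `X` with
`|Ω| < |X|`, then every point stabiliser of `Ω` is transitive on `X`. -/
theorem stab_trans [Finite G] (Ω : Type w) (X : Type w') [MulAction G Ω] [MulAction G X]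
    [Finite Ω] [Finite X] [MulAction.IsPretransitive G Ω]
    (h2 : MulAction.IsMultiplyPretransitive G X 2) (hX : 3 ≤ Nat.card X)
    (hlt : Nat.card Ω < Nat.card X) (ω : Ω) (x y : X) : ∃ g : G, g • ω = ω ∧ g • x = y := by
  classical
  have : Fintype G := Fintype.ofFinite G
  have hfinI := finite_irrCharacter (G := G)
  have : Fintype (IrrCharacter G) := Fintype.ofFinite _
  have : Nonempty Ω := ⟨ω⟩
  have hXt : MulAction.IsPretransitive G X := MulAction.isPretransitive_of_is_two_pretransitive
  have hirr := (Cfsg.Agent.S0157.result (G := G) X (by omega)).mpr h2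
  obtain ⟨m, d, hm, hd, hmt, hdt, hsum⟩ := decomp (G := G) Ω
  set χ : IrrCharacter G := ⟨fun g => (Nat.card (MulAction.fixedBy X g) : ℂ) - 1, hirr⟩ with hχ
  have hdχ : d χ + 1 = Nat.card X := by
    have h1 := hd χ
    have h2' : ((χ : IrrCharacter G) : G → ℂ) 1 = permChar G X 1 - 1 := rfl
    rw [h2', permChar_one] at h1
    have h3 : ((d χ + 1 : ℕ) : ℂ) = (Nat.card X : ℂ) := by
      push_cast
      rw [← h1]
      ring
    exact_mod_cast h3
  have hne : χ ≠ triv G := by
    intro h
    rw [h] at hdχ
    omega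
  have hmχ : (m χ : ℂ) + 1 = (Nat.card (Quotient (MulAction.orbitRel G (Ω × X))) : ℂ) := by
    have h1 := hm χ
    have e : ((χ : IrrCharacter G) : G → ℂ) = permChar G X - (fun _ : G => (1 : ℂ)) := rfl
    have e1 : ∀ φ ψ₁ ψ₂ : G → ℂ, Cfsg.classInner φ (ψ₁ - ψ₂)
        = Cfsg.classInner φ ψ₁ - Cfsg.classInner φ ψ₂ := by
      intro φ ψ₁ ψ₂
      rw [Clifford.classInner_conj_symm, Orth.classInner_sub_left, map_sub,
        ← Clifford.classInner_conj_symm, ← Clifford.classInner_conj_symm]
    rw [e, e1, inner_perm, inner_perm_one] at h1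
    rw [← h1]
    ring
  have hmχ0 : m χ = 0 := by
    by_contra hpos
    have h1 : m (triv G) * d (triv G) + m χ * d χ ≤ ∑ ψ : IrrCharacter G, m ψ * d ψ := by
      have hsub : ({triv G, χ} : Finset (IrrCharacter G)) ⊆ Finset.univ := Finset.subset_univ _
      have := Finset.sum_le_sum_of_subset (f := fun ψ : IrrCharacter G => m ψ * d ψ) hsub
      rwa [Finset.sum_pair (Ne.symm hne)] at this
    rw [hmt, hdt, ← hsum] at h1
    have h3 : d χ ≤ m χ * d χ := Nat.le_mul_of_pos_left _ (Nat.pos_of_ne_zero hpos)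
    omega
  have horb : Nat.card (Quotient (MulAction.orbitRel G (Ω × X))) = 1 := by
    rw [hmχ0] at hmχ
    have : ((1 : ℕ) : ℂ) = (Nat.card (Quotient (MulAction.orbitRel G (Ω × X))) : ℂ) := by
      rw [← hmχ]; simp
    exact_mod_cast this.symm
  have hsub : Subsingleton (Quotient (MulAction.orbitRel G (Ω × X))) :=
    (Nat.card_eq_one_iff_unique.mp horb).1
  have hq : (Quotient.mk (MulAction.orbitRel G (Ω × X)) (ω, y))
      = Quotient.mk (MulAction.orbitRel G (Ω × X)) (ω, x) := Subsingleton.elim _ _
  have h3 : (MulAction.orbitRel G (Ω × X)) (ω, y) (ω, x) := Quotient.exact hq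
  obtain ⟨g, hg⟩ := MulAction.orbitRel_apply.1 h3
  exact ⟨g, congrArg Prod.fst hg, congrArg Prod.snd hg⟩

/-- a transitive action on at least two points of a group without non-trivial one-dimensional
representations yields an irreducible representation of degree `2 ≤ k ≤ |Ω| - 1` -/
theorem exists_irrep [Finite G] (Ω : Type w) [MulAction G Ω] [Finite Ω]
    [MulAction.IsPretransitive G Ω] (hΩ : 2 ≤ Nat.card Ω)
    (hperf : ∀ (ρ : Representation ℂ G (Fin 1 → ℂ)) (g : G), ρ g = 1) :
    ∃ (k : ℕ) (ρ : Representation ℂ G (Fin k → ℂ)), ρ.IsIrreducible ∧ 2 ≤ k ∧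
      k + 1 ≤ Nat.card Ω := by
  classical
  have : Fintype G := Fintype.ofFinite G
  have hfinI := finite_irrCharacter (G := G)
  have : Fintype (IrrCharacter G) := Fintype.ofFinite _
  have : Nonempty Ω := by
    rw [← Finite.card_pos_iff]; omega
  obtain ⟨m, d, hm, hd, hmt, hdt, hsum⟩ := decomp (G := G) Ω
  obtain ⟨ψ, hψne, hψpos⟩ : ∃ ψ : IrrCharacter G, ψ ≠ triv G ∧ m ψ * d ψ ≠ 0 := by
    by_contra hcon
    push Not at hcon
    have : ∑ ψ : IrrCharacter G, m ψ * d ψ = m (triv G) * d (triv G) := by
      apply Finset.sum_eq_single (triv G)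
      · intro b _ hb
        exact hcon b hb
      · intro h
        exact absurd (Finset.mem_univ _) h
    rw [this, hmt, hdt] at hsum
    omega
  have hle : m (triv G) * d (triv G) + m ψ * d ψ ≤ Nat.card Ω := by
    have hsub : ({triv G, ψ} : Finset (IrrCharacter G)) ⊆ Finset.univ := Finset.subset_univ _
    have := Finset.sum_le_sum_of_subset (f := fun ψ : IrrCharacter G => m ψ * d ψ) hsub
    rwa [Finset.sum_pair (Ne.symm hψne), ← hsum] at this
  rw [hmt, hdt] at hle
  have hmpos : m ψ ≠ 0 := fun h => hψpos (by rw [h, zero_mul])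
  have hdpos : d ψ ≠ 0 := fun h => hψpos (by rw [h, mul_zero])
  have hdle : d ψ ≤ m ψ * d ψ := Nat.le_mul_of_pos_left _ (Nat.pos_of_ne_zero hmpos)
  obtain ⟨k, ρ, hρ, hchar⟩ := ψ.2
  have hk : k = d ψ := by
    have h1 := hd ψ
    rw [← hchar, Representation.char_one, Module.finrank_fin_fun] at h1
    exact_mod_cast h1
  refine ⟨k, ρ, hρ, ?_, by omega⟩
  by_contra hk2
  have hk1 : k = 1 := by omega
  subst hk1
  apply hψne
  apply Subtype.ext
  rw [← hchar]
  funext g
  show ρ.character g = 1
  unfold Representation.character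
  rw [hperf ρ g]
  simp

end Cfsg.Agent.Lib.Helper53.MinIdxChar
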