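import Mathlib
import Cfsg.Agent.Lib.Helper39.SLMinTv
import Cfsg.Agent.Lib.Helper83.SLTransv
import Cfsg.Agent.Lib.Helper53.MinIdxChar

/-!
Transitive actions of `SL_{k+3}(F)` of small degree: the transvection subgroups `U_x`
(transvections with centre `x`), their point stabilisers `Phi x ω`, counting, and the
exclusion of the two numerically possible small degrees in the cases
`(n, q) = (3, 2), (3, 4), (4, 3)`.
-/

set_option autoImplicit false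

namespace Cfsg.Agent.Lib.Helper53.MinIdxTv

open Matrix
open Cfsg.Agent.Lib.Helper39.LSHerm Cfsg.Agent.Lib.Helper39.SLMinTv
open Cfsg.Agent.Lib.Helper83.SLTransv
open scoped LinearAlgebra.Projectivization

variable {F : Type*} [Field F] {k : ℕ}

/-- the group `SL_{k+3}(F)` -/
abbrev SLk (F : Type*) [Field F] (k : ℕ) := Matrix.SpecialLinearGroup (Fin (k + 3)) F

theorem tS_mem (a φ : Fin (k + 3) → F) (ha : a ≠ 0) (hφ : φ ≠ 0) (h : φ ⬝ᵥ a = 0) :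
    tS a φ ∈ tvSet F k :=
  mem_of_rep _ a φ ha hφ h (by rw [tS_coe _ _ h]; rfl)

theorem tS_inv (a φ : Fin (k + 3) → F) (h : φ ⬝ᵥ a = 0) : (tS a φ)⁻¹ = tS a (-φ) := by
  have h' : (-φ) ⬝ᵥ a = 0 := by rw [neg_dotProduct, h, neg_zero]
  rw [inv_eq_iff_mul_eq_one, tS_mul_right a φ (-φ) h h', add_neg_cancel, tS_zero_right]

theorem tS_conj (g : SLk F k) (a φ : Fin (k + 3) → F) (h : φ ⬝ᵥ a = 0) :
    g * tS a φ * g⁻¹ = tS (g.1 *ᵥ a) (φ ᵥ* (g⁻¹ : SLk F k).1) := by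
  have hw : (φ ᵥ* (g⁻¹ : SLk F k).1) ᵥ* g.1 = φ := by
    rw [Matrix.vecMul_vecMul, ← Matrix.SpecialLinearGroup.coe_mul, inv_mul_cancel,
      Matrix.SpecialLinearGroup.coe_one, Matrix.vecMul_one]
  have h' : (φ ᵥ* (g⁻¹ : SLk F k).1) ⬝ᵥ (g.1 *ᵥ a) = 0 := by
    rw [Matrix.dotProduct_mulVec, hw, h]
  have := tS_conj_right g a (φ ᵥ* (g⁻¹ : SLk F k).1) h'
  rw [hw] at this
  rw [this]; group

theorem tS_inj (a φ φ' : Fin (k + 3) → F) (ha : a ≠ 0) (h : φ ⬝ᵥ a = 0) (h' : φ' ⬝ᵥ a = 0)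
    (he : tS a φ = tS a φ') : φ = φ' := by
  obtain ⟨i, hi⟩ := exists_coord_ne a ha
  have h1 := congrArg (fun M : SLk F k => M.1) he
  simp only [tS_coe _ _ h, tS_coe _ _ h'] at h1
  funext j
  have h2 := congrFun (congrFun h1 i) j
  unfold tv at h2
  simp only [Matrix.add_apply, Matrix.vecMulVec_apply] at h2
  have := add_left_cancel h2
  exact mul_left_cancel₀ hi this

theorem tS_comm (x φ x' φ' : Fin (k + 3) → F) (h : φ ⬝ᵥ x = 0) (h' : φ' ⬝ᵥ x' = 0)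
    (hx : φ' ⬝ᵥ x = 0) :
    tS x ((φ ⬝ᵥ x') • φ') = (tS x' φ' * tS x φ)⁻¹ * (tS x φ * tS x' φ') := by
  rw [tS_heis x' φ' x φ h' h hx]; group

section Action

variable {Ω : Type*} [MulAction (SLk F k) Ω]

/-- the functionals `φ ⊥ x` such that the transvection `1 + x ⊗ φ` fixes `ω` -/
def Phi (x : Fin (k + 3) → F) (ω : Ω) : AddSubgroup (Fin (k + 3) → F) where
  carrier := {φ | φ ⬝ᵥ x = 0 ∧ tS x φ • ω = ω}
  zero_mem' := ⟨zero_dotProduct x, by rw [tS_zero_right, one_smul]⟩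
  add_mem' := by
    rintro φ φ' ⟨h, hf⟩ ⟨h', hf'⟩
    refine ⟨by rw [add_dotProduct, h, h', add_zero], ?_⟩
    rw [← tS_mul_right x φ φ' h h', mul_smul, hf', hf]
  neg_mem' := by
    rintro φ ⟨h, hf⟩
    refine ⟨by rw [neg_dotProduct, h, neg_zero], ?_⟩
    rw [← tS_inv x φ h, inv_smul_eq_iff, hf]

theorem mem_Phi (x φ : Fin (k + 3) → F) (ω : Ω) :
    φ ∈ Phi x ω ↔ φ ⬝ᵥ x = 0 ∧ tS x φ • ω = ω := Iff.rfl

theorem mem_Phi_conj (g : SLk F k) (x φ : Fin (k + 3) → F) (ω : Ω) (hφ : φ ∈ Phi x ω) :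
    φ ᵥ* (g⁻¹ : SLk F k).1 ∈ Phi (g.1 *ᵥ x) (g • ω) := by
  obtain ⟨h, hf⟩ := hφ
  have hw : (φ ᵥ* (g⁻¹ : SLk F k).1) ᵥ* g.1 = φ := by
    rw [Matrix.vecMul_vecMul, ← Matrix.SpecialLinearGroup.coe_mul, inv_mul_cancel,
      Matrix.SpecialLinearGroup.coe_one, Matrix.vecMul_one]
  refine ⟨by rw [Matrix.dotProduct_mulVec, hw, h], ?_⟩
  rw [← tS_conj g x φ h, mul_smul, mul_smul, inv_smul_smul, hf]

theorem card_Phi_conj_le [Finite F] (g : SLk F k) (x : Fin (k + 3) → F) (ω : Ω) :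
    Nat.card (Phi x ω) ≤ Nat.card (Phi (g.1 *ᵥ x) (g • ω)) := by
  refine Nat.card_le_card_of_injective
    (fun φ : Phi x ω => (⟨φ.1 ᵥ* (g⁻¹ : SLk F k).1, mem_Phi_conj g x φ.1 ω φ.2⟩ :
      Phi (g.1 *ᵥ x) (g • ω))) ?_
  intro φ φ' he
  have h1 : φ.1 ᵥ* (g⁻¹ : SLk F k).1 = φ'.1 ᵥ* (g⁻¹ : SLk F k).1 := congrArg Subtype.val he
  have h2 := congrArg (fun v => v ᵥ* g.1) h1
  simp only [Matrix.vecMul_vecMul, ← Matrix.SpecialLinearGroup.coe_mul, inv_mul_cancel,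
    Matrix.SpecialLinearGroup.coe_one, Matrix.vecMul_one] at h2
  exact Subtype.ext h2

theorem card_Phi_conj [Finite F] (g : SLk F k) (x : Fin (k + 3) → F) (ω : Ω) :
    Nat.card (Phi (g.1 *ᵥ x) (g • ω)) = Nat.card (Phi x ω) := by
  apply le_antisymm
  · have := card_Phi_conj_le g⁻¹ (g.1 *ᵥ x) (g • ω)
    rwa [Matrix.mulVec_mulVec, ← Matrix.SpecialLinearGroup.coe_mul, inv_mul_cancel,
      Matrix.SpecialLinearGroup.coe_one, Matrix.one_mulVec, inv_smul_smul] at this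
  · exact card_Phi_conj_le g x ω

theorem card_Phi_smul [Finite F] (c : F) (hc : c ≠ 0) (x : Fin (k + 3) → F) (ω : Ω) :
    Nat.card (Phi (c • x) ω) = Nat.card (Phi x ω) := by
  have key : ∀ (c : F) (hc : c ≠ 0) (x : Fin (k + 3) → F),
      Nat.card (Phi (c • x) ω) ≤ Nat.card (Phi x ω) := by
    intro c hc x
    refine Nat.card_le_card_of_injective
      (fun φ : Phi (c • x) ω => (⟨c • φ.1, ?_⟩ : Phi x ω)) ?_
    · obtain ⟨h, hf⟩ := φ.2
      rw [dotProduct_smul, smul_eq_mul] at h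
      have h0 : φ.1 ⬝ᵥ x = 0 := by
        rcases mul_eq_zero.mp h with h | h
        · exact absurd h hc
        · exact h
      refine ⟨by rw [smul_dotProduct, h0, smul_zero], ?_⟩
      rw [← tS_smul c x φ.1 h0]
      exact hf
    · intro φ φ' he
      have h1 : c • φ.1 = c • φ'.1 := congrArg Subtype.val he
      exact Subtype.ext (smul_right_injective _ hc h1)
  apply le_antisymm (key c hc x)
  have := key c⁻¹ (inv_ne_zero hc) (c • x)
  rwa [smul_smul, inv_mul_cancel₀ hc, one_smul] at this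

theorem card_fixedBy_conj (g t : SLk F k) :
    Nat.card (MulAction.fixedBy Ω (g * t * g⁻¹)) = Nat.card (MulAction.fixedBy Ω t) := by
  refine Nat.card_congr
    { toFun := fun ω => ⟨g⁻¹ • ω.1, ?_⟩
      invFun := fun ω => ⟨g • ω.1, ?_⟩
      left_inv := fun ω => Subtype.ext (smul_inv_smul g ω.1)
      right_inv := fun ω => Subtype.ext (inv_smul_smul g ω.1) }
  · have := ω.2
    rw [MulAction.mem_fixedBy] at this ⊢
    rw [← mul_smul]
    nth_rewrite 2 [← this]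
    rw [← mul_smul]
    congr 1
    group
  · have := ω.2
    rw [MulAction.mem_fixedBy] at this ⊢
    rw [mul_smul, mul_smul, inv_smul_smul, this]

theorem card_fixedBy_tv {t t' : SLk F k} (ht : t ∈ tvSet F k) (ht' : t' ∈ tvSet F k) :
    Nat.card (MulAction.fixedBy Ω t) = Nat.card (MulAction.fixedBy Ω t') := by
  obtain ⟨g, hg⟩ := exists_conj_of_mem ht ht'
  rw [hg, card_fixedBy_conj]

/-- standard basis vectors -/
def ee (F : Type*) [Field F] (k : ℕ) (i : Fin (k + 3)) : Fin (k + 3) → F := Pi.single i 1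

theorem dot_ee (φ : Fin (k + 3) → F) (i : Fin (k + 3)) : φ ⬝ᵥ ee F k i = φ i := by
  unfold ee; rw [dotProduct_single, mul_one]

theorem ee_dot (x : Fin (k + 3) → F) (i : Fin (k + 3)) : ee F k i ⬝ᵥ x = x i := by
  unfold ee; rw [single_dotProduct, one_mul]

theorem ee_self (i : Fin (k + 3)) : ee F k i i = 1 := by simp [ee]

theorem ee_ne (i j : Fin (k + 3)) (h : j ≠ i) : ee F k i j = 0 := by simp [ee, h]

theorem ee_ne_zero (i : Fin (k + 3)) : ee F k i ≠ 0 := fun h => by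
  have := congrFun h i
  simp [ee] at this

/-- the group of transvections with centre `e₀` -/
def Usub (F : Type*) [Field F] (k : ℕ) : Subgroup (SLk F k) where
  carrier := {g | ∃ φ : Fin (k + 3) → F, φ 0 = 0 ∧ g = tS (ee F k 0) φ}
  one_mem' := ⟨0, rfl, (tS_zero_right _).symm⟩
  mul_mem' := by
    rintro _ _ ⟨φ, h, rfl⟩ ⟨φ', h', rfl⟩
    refine ⟨φ + φ', by simp [h, h'], ?_⟩
    rw [tS_mul_right _ _ _ (by rw [dot_ee, h]) (by rw [dot_ee, h'])]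
  inv_mem' := by
    rintro _ ⟨φ, h, rfl⟩
    exact ⟨-φ, by simp [h], tS_inv _ _ (by rw [dot_ee, h])⟩

theorem mem_Usub (g : SLk F k) :
    g ∈ Usub F k ↔ ∃ φ : Fin (k + 3) → F, φ 0 = 0 ∧ g = tS (ee F k 0) φ := Iff.rfl

theorem card_Usub [Finite F] : Nat.card (Usub F k) = Nat.card F ^ (k + 2) := by
  have hinj : Function.Injective (fun φ' : Fin (k + 2) → F =>
      (⟨tS (ee F k 0) (Fin.cons 0 φ' : Fin (k + 3) → F), ⟨_, Fin.cons_zero _ _, rfl⟩⟩ :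
        Usub F k)) := by
    intro φ ψ h
    have h1 : tS (ee F k 0) (Fin.cons 0 φ : Fin (k + 3) → F) =
        tS (ee F k 0) (Fin.cons 0 ψ : Fin (k + 3) → F) := congrArg Subtype.val h
    have h2 := tS_inj _ _ _ (ee_ne_zero 0) (by rw [dot_ee]; exact Fin.cons_zero _ _)
      (by rw [dot_ee]; exact Fin.cons_zero _ _) h1
    exact Fin.cons_right_injective _ h2
  have hsurj : Function.Surjective (fun φ' : Fin (k + 2) → F =>
      (⟨tS (ee F k 0) (Fin.cons 0 φ' : Fin (k + 3) → F), ⟨_, Fin.cons_zero _ _, rfl⟩⟩ :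
        Usub F k)) := by
    rintro ⟨g, φ, h, rfl⟩
    refine ⟨Fin.tail φ, Subtype.ext ?_⟩
    show tS (ee F k 0) (Fin.cons 0 (Fin.tail φ) : Fin (k + 3) → F) = tS (ee F k 0) φ
    rw [← h, Fin.cons_self_tail]
  rw [← Nat.card_congr (Equiv.ofBijective _ ⟨hinj, hsurj⟩), Nat.card_fun, Nat.card_fin]

theorem card_stab_Usub (ω : Ω) :
    Nat.card (MulAction.stabilizer (Usub F k) ω) = Nat.card (Phi (ee F k 0) ω) := by
  symm
  have hmem : ∀ φ : Phi (ee F k 0) ω, tS (ee F k 0) φ.1 ∈ Usub F k := fun φ =>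
    ⟨φ.1, by have := φ.2.1; rwa [dot_ee] at this, rfl⟩
  have hst : ∀ φ : Phi (ee F k 0) ω,
      (⟨tS (ee F k 0) φ.1, hmem φ⟩ : Usub F k) ∈ MulAction.stabilizer (Usub F k) ω := fun φ =>
    φ.2.2
  refine Nat.card_congr (Equiv.ofBijective
    (fun φ : Phi (ee F k 0) ω => (⟨⟨tS (ee F k 0) φ.1, hmem φ⟩, hst φ⟩ :
      MulAction.stabilizer (Usub F k) ω)) ⟨?_, ?_⟩)
  · intro φ φ' h
    have h1 : tS (ee F k 0) φ.1 = tS (ee F k 0) φ'.1 :=
      congrArg (fun u : MulAction.stabilizer (Usub F k) ω => ((u : Usub F k) : SLk F k)) h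
    exact Subtype.ext (tS_inj _ _ _ (ee_ne_zero 0) φ.2.1 φ'.2.1 h1)
  · rintro ⟨⟨g, φ, h0, rfl⟩, hs⟩
    exact ⟨⟨φ, by rw [dot_ee]; exact h0, hs⟩, rfl⟩

/-- the stabiliser of the point `⟨e₀⟩` is transitive on `Ω` -/
theorem exists_P [Finite F] [Finite Ω] [MulAction.IsPretransitive (SLk F k) Ω]
    (hlt : Nat.card Ω < Nat.card (ℙ F (Fin (k + 3) → F))) (ω ω' : Ω) :
    ∃ (p : SLk F k) (c : F), c ≠ 0 ∧ p • ω = ω' ∧ p.1 *ᵥ ee F k 0 = c • ee F k 0 := by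
  obtain ⟨g0, hg0⟩ := MulAction.exists_smul_eq (SLk F k) ω ω'
  have h2 : MulAction.IsMultiplyPretransitive (SLk F k) (ℙ F (Fin (k + 3) → F)) 2 :=
    inferInstance
  have hX : 3 ≤ Nat.card (ℙ F (Fin (k + 3) → F)) := by
    rw [Projectivization.card_of_finrank F _ (Module.finrank_fin_fun F),
      Finset.sum_range_succ, Finset.sum_range_succ, Finset.sum_range_succ]
    have hq : 0 < Nat.card F := Nat.card_pos
    have a1 : 1 ≤ Nat.card F ^ k := Nat.one_le_pow _ _ hq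
    have a2 : 1 ≤ Nat.card F ^ (k + 1) := Nat.one_le_pow _ _ hq
    have a3 : 1 ≤ Nat.card F ^ (k + 2) := Nat.one_le_pow _ _ hq
    omega
  let x0 : ℙ F (Fin (k + 3) → F) := Projectivization.mk F (ee F k 0) (ee_ne_zero 0)
  have : Finite (SLk F k) := inferInstance
  obtain ⟨g, hg, hgx⟩ := Cfsg.Agent.Lib.Helper53.MinIdxChar.stab_trans Ω _ h2 hX hlt ω'
    (g0 • x0) x0
  have h1 : (g * g0) • x0 = x0 := by rw [mul_smul, hgx]
  rw [Projectivization.smul_mk, Projectivization.mk_eq_mk_iff] at h1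
  obtain ⟨c, hc⟩ := h1
  refine ⟨g * g0, (c : F), Units.ne_zero _, by rw [mul_smul, hg0, hg], ?_⟩
  have h3 : (g * g0).1 *ᵥ ee F k 0 = (g * g0) • ee F k 0 := rfl
  rw [h3, ← hc]
  rfl

/-- the number of transvections with a given centre fixing a point does not depend on
the centre or the point -/
theorem card_Phi_const [Finite F] [Finite Ω] [MulAction.IsPretransitive (SLk F k) Ω]
    (hlt : Nat.card Ω < Nat.card (ℙ F (Fin (k + 3) → F))) (ω ω' : Ω)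
    (x : Fin (k + 3) → F) (hx : x ≠ 0) :
    Nat.card (Phi x ω') = Nat.card (Phi (ee F k 0) ω) := by
  -- move `e₀` to a multiple of `x`
  have hpt : MulAction.IsPretransitive (SLk F k) (ℙ F (Fin (k + 3) → F)) :=
    MulAction.isPretransitive_of_is_two_pretransitive
  obtain ⟨g, hg⟩ := MulAction.exists_smul_eq (SLk F k)
    (Projectivization.mk F (ee F k 0) (ee_ne_zero 0)) (Projectivization.mk F x hx)
  rw [Projectivization.smul_mk, Projectivization.mk_eq_mk_iff] at hg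
  obtain ⟨c, hc⟩ := hg
  have h3 : g.1 *ᵥ ee F k 0 = g • ee F k 0 := rfl
  obtain ⟨p, c', hc', hp, hpe⟩ := exists_P hlt ω (g⁻¹ • ω')
  have h4 : x = ((c⁻¹ : Fˣ) : F) • (g.1 *ᵥ ee F k 0) := by
    rw [h3, ← hc, Units.smul_def, smul_smul, ← Units.val_mul, inv_mul_cancel, Units.val_one,
      one_smul]
  rw [h4, card_Phi_smul _ (Units.ne_zero _)]
  have h5 := card_Phi_conj g (ee F k 0) (g⁻¹ • ω')
  rw [smul_inv_smul] at h5
  rw [h5, ← hp]
  have h6 := card_Phi_conj p (ee F k 0) ω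
  rw [hpe, card_Phi_smul _ hc'] at h6
  exact h6

theorem orbit_mul_stab [Finite F] (ω : Ω) :
    Nat.card (MulAction.orbit (Usub F k) ω) * Nat.card (MulAction.stabilizer (Usub F k) ω) =
      Nat.card F ^ (k + 2) := by
  classical
  have : Fintype (Usub F k) := Fintype.ofFinite _
  have : Finite (MulAction.orbit (Usub F k) ω) :=
    (Set.finite_range (fun g : Usub F k => g • ω)).to_subtype
  have : Fintype (MulAction.orbit (Usub F k) ω) := Fintype.ofFinite _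
  have : Fintype (MulAction.stabilizer (Usub F k) ω) := Fintype.ofFinite _
  rw [← card_Usub, Nat.card_eq_fintype_card, Nat.card_eq_fintype_card, Nat.card_eq_fintype_card]
  exact MulAction.card_orbit_mul_card_stabilizer_eq_card_group (Usub F k) ω

/-- the counting lemma: Burnside and the class formula for the action of `U` on `Ω` -/
theorem counting [Finite F] [Finite Ω] [MulAction.IsPretransitive (SLk F k) Ω]
    (hm2 : 2 ≤ Nat.card Ω) (hlt : Nat.card Ω < Nat.card (ℙ F (Fin (k + 3) → F))) :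
    ∃ v b f : ℕ, (∀ (ω : Ω) (x : Fin (k + 3) → F), x ≠ 0 → Nat.card (Phi x ω) = v) ∧
      v ∣ Nat.card F ^ (k + 2) ∧
      Nat.card Ω = b * (Nat.card F ^ (k + 2) / v) ∧
      Nat.card Ω + (Nat.card F ^ (k + 2) - 1) * f = b * Nat.card F ^ (k + 2) ∧
      f < Nat.card Ω ∧
      (∀ t ∈ tvSet F k, Nat.card (MulAction.fixedBy Ω t) = f) ∧
      (b = 1 → ∀ ω ω' : Ω, ∃ φ : Fin (k + 3) → F, φ 0 = 0 ∧ tS (ee F k 0) φ • ω = ω') ∧
      (∀ ω : Ω, Nat.card (MulAction.orbit (Usub F k) ω) * v = Nat.card F ^ (k + 2)) := by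
  classical
  have hne : Nonempty Ω := by
    rw [← Finite.card_pos_iff]; omega
  obtain ⟨ω0⟩ := hne
  set v := Nat.card (Phi (ee F k 0) ω0) with hv
  have hPhi : ∀ (ω : Ω) (x : Fin (k + 3) → F), x ≠ 0 → Nat.card (Phi x ω) = v :=
    fun ω x hx => card_Phi_const hlt ω0 ω x hx
  have hstab : ∀ ω : Ω, Nat.card (MulAction.stabilizer (Usub F k) ω) = v := fun ω => by
    rw [card_stab_Usub, hPhi ω _ (ee_ne_zero 0)]
  have hvN : v ∣ Nat.card F ^ (k + 2) := by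
    rw [← card_Usub, ← hstab ω0]
    exact Subgroup.card_subgroup_dvd_card _
  have : Fintype (Usub F k) := Fintype.ofFinite _
  have : Fintype Ω := Fintype.ofFinite _
  have : Fintype (Quotient (MulAction.orbitRel (Usub F k) Ω)) := Fintype.ofFinite _
  have hclass := MulAction.card_eq_sum_card_group_div_card_stabilizer (Usub F k) Ω
  have hterm : ∀ a : Quotient (MulAction.orbitRel (Usub F k) Ω),
      Fintype.card (Usub F k) / Fintype.card (MulAction.stabilizer (Usub F k) a.out) =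
        Nat.card F ^ (k + 2) / v := fun a => by
    rw [← Nat.card_eq_fintype_card, ← Nat.card_eq_fintype_card, card_Usub, hstab]
  have hclass' : Nat.card Ω =
      Fintype.card (Quotient (MulAction.orbitRel (Usub F k) Ω)) * (Nat.card F ^ (k + 2) / v) := by
    rw [Nat.card_eq_fintype_card, hclass, Finset.sum_congr rfl (fun a _ => hterm a),
      Finset.sum_const, Finset.card_univ, smul_eq_mul]
  have hburn := MulAction.sum_card_fixedBy_eq_card_orbits_mul_card_group (Usub F k) Ω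
  set f := Nat.card (MulAction.fixedBy Ω (stdE F k)) with hf
  have hfix : ∀ t ∈ tvSet F k, Nat.card (MulAction.fixedBy Ω t) = f := fun t ht =>
    card_fixedBy_tv ht stdE_mem
  have hsum : ∀ g : Usub F k, g ∈ (Finset.univ : Finset (Usub F k)).erase 1 →
      Fintype.card (MulAction.fixedBy Ω g) = f := by
    rintro ⟨g, φ, h0, rfl⟩ hg
    have hφ : φ ≠ 0 := by
      rintro rfl
      apply (Finset.mem_erase.mp hg).1
      exact Subtype.ext (tS_zero_right _)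
    rw [← Nat.card_eq_fintype_card]
    exact hfix _ (tS_mem _ _ (ee_ne_zero 0) hφ (by rw [dot_ee]; exact h0))
  have hone : Fintype.card (MulAction.fixedBy Ω (1 : Usub F k)) = Nat.card Ω := by
    rw [← Nat.card_eq_fintype_card]
    refine Nat.card_congr (Equiv.subtypeUnivEquiv fun ω => ?_)
    rw [MulAction.mem_fixedBy, one_smul]
  have hburn' : Nat.card Ω + (Nat.card F ^ (k + 2) - 1) * f =
      Fintype.card (Quotient (MulAction.orbitRel (Usub F k) Ω)) * Nat.card F ^ (k + 2) := by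
    rw [← card_Usub, Nat.card_eq_fintype_card (α := Usub F k), ← hburn,
      ← Finset.add_sum_erase _ _ (Finset.mem_univ (1 : Usub F k)), hone,
      Finset.sum_const_nat hsum, Finset.card_erase_of_mem (Finset.mem_univ _), Finset.card_univ]
  have hfle : f ≤ Nat.card Ω := Finite.card_subtype_le _
  have hflt : f < Nat.card Ω := by
    rcases Nat.lt_or_ge f (Nat.card Ω) with h | h
    · exact h
    exfalso
    have hall : ∀ t ∈ tvSet F k, ∀ ω : Ω, t • ω = ω := by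
      intro t ht ω
      by_contra hω
      have h1 : Nat.card (MulAction.fixedBy Ω t) < Nat.card Ω :=
        Finite.card_subtype_lt (p := fun x => x ∈ MulAction.fixedBy Ω t) (x := ω) hω
      rw [hfix t ht] at h1
      omega
    have hker : Subgroup.closure (tvSet F k) ≤ (MulAction.toPermHom (SLk F k) Ω).ker := by
      rw [Subgroup.closure_le]
      intro t ht
      rw [SetLike.mem_coe, MonoidHom.mem_ker]
      ext ω
      exact hall t ht ω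
    rw [closure_tvSet] at hker
    have hsub : Subsingleton Ω := by
      refine ⟨fun ω ω' => ?_⟩
      obtain ⟨g, hg⟩ := MulAction.exists_smul_eq (SLk F k) ω ω'
      have h1 := hker (Subgroup.mem_top g)
      rw [MonoidHom.mem_ker] at h1
      have h2 := congrArg (fun σ : Equiv.Perm Ω => σ ω) h1
      simp only [MulAction.toPermHom_apply, MulAction.toPerm_apply, Equiv.Perm.coe_one,
        id_eq] at h2
      rw [← hg, h2]
    have := Finite.card_le_one_iff_subsingleton.mpr hsub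
    omega
  refine ⟨v, Fintype.card (Quotient (MulAction.orbitRel (Usub F k) Ω)), f, hPhi, hvN, hclass',
    hburn', hflt, hfix, ?_, ?_⟩
  · intro hb ω ω'
    have hsub : Subsingleton (Quotient (MulAction.orbitRel (Usub F k) Ω)) :=
      Fintype.card_le_one_iff_subsingleton.mp hb.le
    have h1 : (Quotient.mk (MulAction.orbitRel (Usub F k) Ω) ω' : Quotient _) =
        Quotient.mk (MulAction.orbitRel (Usub F k) Ω) ω := Subsingleton.elim _ _
    have h2 := Quotient.exact h1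
    obtain ⟨⟨g, φ, h0, rfl⟩, hg⟩ := (MulAction.orbitRel_apply.mp h2)
    exact ⟨φ, h0, hg⟩
  · intro ω
    rw [← hstab ω]
    exact orbit_mul_stab ω

theorem tS_swap (x0 y θ φ : Fin (k + 3) → F) (hθy : θ ⬝ᵥ y = 0) (hθ0 : θ ⬝ᵥ x0 = 0)
    (hφ : φ ⬝ᵥ x0 = 0) :
    tS x0 φ * tS y θ = tS y θ * tS x0 (φ + (φ ⬝ᵥ y) • θ) := by
  rw [tS_heis y θ x0 φ hθy hφ hθ0, mul_assoc,
    tS_mul_right x0 _ _ hφ (by rw [smul_dotProduct, hθ0, smul_zero])]

theorem tS_nf (x0 y θ φ φ' : Fin (k + 3) → F) (g : SLk F k) (hθy : θ ⬝ᵥ y = 0)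
    (hθ0 : θ ⬝ᵥ x0 = 0) (hφ : φ ⬝ᵥ x0 = 0) (hφ' : φ' ⬝ᵥ x0 = 0) :
    (g * tS x0 φ) * (tS y θ * tS x0 φ') = g * tS y θ * tS x0 (φ + (φ ⬝ᵥ y) • θ + φ') := by
  have h1 : (φ + (φ ⬝ᵥ y) • θ) ⬝ᵥ x0 = 0 := by
    rw [add_dotProduct, smul_dotProduct, hφ, hθ0, smul_zero, add_zero]
  calc (g * tS x0 φ) * (tS y θ * tS x0 φ') = g * (tS x0 φ * tS y θ) * tS x0 φ' := by group
    _ = g * (tS y θ * tS x0 (φ + (φ ⬝ᵥ y) • θ)) * tS x0 φ' := by
        rw [tS_swap x0 y θ φ hθy hθ0 hφ]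
    _ = g * tS y θ * (tS x0 (φ + (φ ⬝ᵥ y) • θ) * tS x0 φ') := by group
    _ = _ := by rw [tS_mul_right x0 _ _ h1 hφ']

/-- Case I in dimension three and characteristic two -/
theorem killA (h2 : (2 : F) = 0) (ω : Ω) (x0 x1 θ2 : Fin (k + 3) → F)
    (hfree : ∀ x φ : Fin (k + 3) → F, x ≠ 0 → φ ≠ 0 → φ ⬝ᵥ x = 0 → tS x φ • ω ≠ ω)
    (htrans : ∀ g : SLk F k, ∃ φ : Fin (k + 3) → F, φ ⬝ᵥ x0 = 0 ∧ (g * tS x0 φ) • ω = ω)
    (h20 : θ2 ⬝ᵥ x0 = 0) (h21 : θ2 ⬝ᵥ x1 = 0) (hx0 : x0 ≠ 0) (hθ2 : θ2 ≠ 0)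
    (hx1 : ∀ c : F, x1 + c • x0 ≠ 0)
    (hdim : ∀ φ : Fin (k + 3) → F, φ ⬝ᵥ x0 = 0 → φ ⬝ᵥ x1 = 0 → ∃ c : F, φ = c • θ2) :
    False := by
  obtain ⟨φ, hφ, hl1⟩ := htrans (tS x1 θ2)
  have hd : ∀ w : Fin (k + 3) → F, w + w = 0 := fun w => by
    rw [← two_smul F w, h2, zero_smul]
  have hsq : (tS x1 θ2 * tS x0 φ) * (tS x1 θ2 * tS x0 φ) = tS x0 ((φ ⬝ᵥ x1) • θ2) := by
    rw [tS_nf x0 x1 θ2 φ φ (tS x1 θ2) h21 h20 hφ hφ, tS_mul_right x1 θ2 θ2 h21 h21, hd,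
      tS_zero_right, one_mul, add_comm φ, add_assoc, hd, add_zero]
  have hfix2 : tS x0 ((φ ⬝ᵥ x1) • θ2) • ω = ω := by rw [← hsq, mul_smul, hl1, hl1]
  by_cases h1 : φ ⬝ᵥ x1 = 0
  · obtain ⟨c, hc⟩ := hdim φ hφ h1
    have h3 : tS x1 θ2 * tS x0 φ = tS (x1 + c • x0) θ2 := by
      rw [hc, ← tS_smul c x0 θ2 h20,
        tS_mul_left x1 (c • x0) θ2 h21 (by rw [dotProduct_smul, h20, smul_zero])]
    rw [h3] at hl1
    exact hfree _ _ (hx1 c) hθ2
      (by rw [dotProduct_add, dotProduct_smul, h21, h20, smul_zero, add_zero]) hl1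
  · exact hfree x0 _ hx0 (smul_ne_zero h1 hθ2) (by rw [smul_dotProduct, h20, smul_zero]) hfix2

/-- Case I in dimension at least four and odd characteristic -/
theorem killB (h2 : (2 : F) ≠ 0) (ω : Ω) (x0 x1 x2 θ2 θ3 : Fin (k + 3) → F)
    (hfree : ∀ x φ : Fin (k + 3) → F, x ≠ 0 → φ ≠ 0 → φ ⬝ᵥ x = 0 → tS x φ • ω ≠ ω)
    (htrans : ∀ g : SLk F k, ∃ φ : Fin (k + 3) → F, φ ⬝ᵥ x0 = 0 ∧ (g * tS x0 φ) • ω = ω)
    (h20 : θ2 ⬝ᵥ x0 = 0) (h30 : θ3 ⬝ᵥ x0 = 0) (h21 : θ2 ⬝ᵥ x1 = 0) (h31 : θ3 ⬝ᵥ x1 = 0)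
    (h22 : θ2 ⬝ᵥ x2 = 1) (h32 : θ3 ⬝ᵥ x2 = 0) (hx0 : x0 ≠ 0) (hθ3 : θ3 ≠ 0)
    (hx1 : ∀ c : F, x1 + c • x0 ≠ 0) : False := by
  obtain ⟨φ, hφ, hl1⟩ := htrans (tS x1 θ2)
  obtain ⟨ψ, hψ, hl2⟩ := htrans (tS x2 θ3)
  obtain ⟨γ, hγ⟩ : ∃ γ : Fin (k + 3) → F,
      γ = (φ ⬝ᵥ x2 + ψ ⬝ᵥ x1) • θ3 - (ψ ⬝ᵥ x1) • θ2 := ⟨_, rfl⟩
  obtain ⟨δ, hδ⟩ : ∃ δ : Fin (k + 3) → F, δ = (2 * ψ ⬝ᵥ x1) • θ3 := ⟨_, rfl⟩
  have hγ0 : γ ⬝ᵥ x0 = 0 := by
    rw [hγ, sub_dotProduct, smul_dotProduct, smul_dotProduct, h20, h30, smul_zero, smul_zero,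
      sub_zero]
  have hγ1 : γ ⬝ᵥ x1 = 0 := by
    rw [hγ, sub_dotProduct, smul_dotProduct, smul_dotProduct, h21, h31, smul_zero, smul_zero,
      sub_zero]
  have hγ2 : γ ⬝ᵥ x2 = -(ψ ⬝ᵥ x1) := by
    rw [hγ, sub_dotProduct, smul_dotProduct, smul_dotProduct, h22, h32, smul_zero, zero_sub,
      smul_eq_mul, mul_one]
  have hδ0 : δ ⬝ᵥ x0 = 0 := by rw [hδ, smul_dotProduct, h30, smul_zero]
  have hδ1 : δ ⬝ᵥ x1 = 0 := by rw [hδ, smul_dotProduct, h31, smul_zero]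
  have hδ2 : δ ⬝ᵥ x2 = 0 := by rw [hδ, smul_dotProduct, h32, smul_zero]
  have hca : tS x1 θ2 * tS x1 θ3 = tS x1 θ3 * tS x1 θ2 := by
    rw [tS_mul_right _ _ _ h21 h31, tS_mul_right _ _ _ h31 h21, add_comm θ2 θ3]
  have hcb : tS x1 θ3 * tS x2 θ3 = tS x2 θ3 * tS x1 θ3 := by
    rw [tS_mul_left _ _ _ h31 h32, tS_mul_left _ _ _ h32 h31, add_comm x1 x2]
  have hab : tS x1 θ2 * tS x2 θ3 = tS x1 θ3 * tS x2 θ3 * tS x1 θ2 := by
    have h := tS_heis x2 θ3 x1 θ2 h32 h21 h31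
    rw [h22, one_smul] at h
    rw [h, mul_assoc, hca, ← mul_assoc, ← hcb]
  -- first commutator
  have hγ' : (γ + (γ ⬝ᵥ x2) • θ3 + ψ) ⬝ᵥ x0 = 0 := by
    rw [add_dotProduct, add_dotProduct, smul_dotProduct, hγ0, h30, hψ, smul_zero, add_zero,
      add_zero]
  have hγ'1 : (γ + (γ ⬝ᵥ x2) • θ3 + ψ) ⬝ᵥ x1 = ψ ⬝ᵥ x1 := by
    rw [add_dotProduct, add_dotProduct, smul_dotProduct, hγ1, h31, smul_zero, add_zero,
      zero_add]
  have id1 : (tS x1 θ2 * tS x0 φ) * (tS x2 θ3 * tS x0 ψ) =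
      (tS x1 θ3 * tS x0 γ) * (tS x2 θ3 * tS x0 ψ) * (tS x1 θ2 * tS x0 φ) := by
    rw [tS_nf x0 x2 θ3 φ ψ _ h32 h30 hφ hψ, tS_nf x0 x2 θ3 γ ψ _ h32 h30 hγ0 hψ,
      tS_nf x0 x1 θ2 _ φ _ h21 h20 hγ' hφ, hab, hγ'1, hγ2]
    congr 2
    rw [hγ]
    ext i
    simp only [Pi.add_apply, Pi.smul_apply, Pi.sub_apply, smul_eq_mul]
    ring
  have hl3 : (tS x1 θ3 * tS x0 γ) • ω = ω := by
    calc (tS x1 θ3 * tS x0 γ) • ω
        = (tS x1 θ3 * tS x0 γ) • ((tS x2 θ3 * tS x0 ψ) • ((tS x1 θ2 * tS x0 φ) • ω)) := by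
          rw [hl1, hl2]
      _ = ((tS x1 θ3 * tS x0 γ) * (tS x2 θ3 * tS x0 ψ) * (tS x1 θ2 * tS x0 φ)) • ω := by
          simp only [mul_smul]
      _ = ω := by rw [← id1, mul_smul, hl2, hl1]
  -- second commutator
  have hδ' : (δ + (δ ⬝ᵥ x1) • θ3 + γ) ⬝ᵥ x0 = 0 := by
    rw [add_dotProduct, add_dotProduct, smul_dotProduct, hδ0, h30, hγ0, smul_zero, add_zero,
      add_zero]
  have hδ'2 : (δ + (δ ⬝ᵥ x1) • θ3 + γ) ⬝ᵥ x2 = -(ψ ⬝ᵥ x1) := by
    rw [add_dotProduct, add_dotProduct, smul_dotProduct, hδ2, h32, hγ2, smul_zero, add_zero,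
      zero_add]
  have id2 : (tS x2 θ3 * tS x0 ψ) * (tS x1 θ3 * tS x0 γ) =
      (1 * tS x0 δ) * (tS x1 θ3 * tS x0 γ) * (tS x2 θ3 * tS x0 ψ) := by
    rw [tS_nf x0 x1 θ3 ψ γ _ h31 h30 hψ hγ0, tS_nf x0 x1 θ3 δ γ _ h31 h30 hδ0 hγ0,
      tS_nf x0 x2 θ3 _ ψ _ h32 h30 hδ' hψ, one_mul, ← hcb, hδ'2, hδ1]
    congr 2
    rw [hδ]
    ext i
    simp only [Pi.add_apply, Pi.smul_apply, smul_eq_mul]
    ring
  have hl4 : tS x0 δ • ω = ω := by
    calc tS x0 δ • ω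
        = (1 * tS x0 δ) • ((tS x1 θ3 * tS x0 γ) • ((tS x2 θ3 * tS x0 ψ) • ω)) := by
          rw [hl2, hl3, one_mul]
      _ = ((1 * tS x0 δ) * (tS x1 θ3 * tS x0 γ) * (tS x2 θ3 * tS x0 ψ)) • ω := by
          simp only [mul_smul]
      _ = ω := by rw [← id2, mul_smul, hl3, hl2]
  by_cases hψ1 : ψ ⬝ᵥ x1 = 0
  · have hγe : γ = (φ ⬝ᵥ x2) • θ3 := by
      rw [hγ, hψ1, add_zero, zero_smul, sub_zero]
    have h3 : tS x1 θ3 * tS x0 γ = tS (x1 + (φ ⬝ᵥ x2) • x0) θ3 := by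
      rw [hγe, ← tS_smul _ x0 θ3 h30,
        tS_mul_left x1 _ θ3 h31 (by rw [dotProduct_smul, h30, smul_zero])]
    rw [h3] at hl3
    exact hfree _ _ (hx1 _) hθ3
      (by rw [dotProduct_add, dotProduct_smul, h31, h30, smul_zero, add_zero]) hl3
  · exact hfree x0 δ hx0 (by rw [hδ]; exact smul_ne_zero (mul_ne_zero h2 hψ1) hθ3) hδ0 hl4

theorem Phi_comm (x x' φ φ' : Fin (k + 3) → F) (ω : Ω) (h : φ ∈ Phi x ω) (h' : φ' ∈ Phi x' ω)
    (hx : φ' ⬝ᵥ x = 0) : (φ ⬝ᵥ x') • φ' ∈ Phi x ω := by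
  refine ⟨by rw [smul_dotProduct, hx, smul_zero], ?_⟩
  rw [tS_comm x φ x' φ' h.1 h'.1 hx, mul_smul, mul_smul, h'.2, h.2, inv_smul_eq_iff, mul_smul,
    h.2, h'.2]

theorem tS_conj_U (x0 y θ φ : Fin (k + 3) → F) (hθy : θ ⬝ᵥ y = 0) (hθ0 : θ ⬝ᵥ x0 = 0)
    (hφ : φ ⬝ᵥ x0 = 0) :
    tS y θ * tS x0 φ * (tS y θ)⁻¹ = tS x0 (φ - (φ ⬝ᵥ y) • θ) := by
  have hn : (-θ) ⬝ᵥ y = 0 := by rw [neg_dotProduct, hθy, neg_zero]
  have hn0 : (-θ) ⬝ᵥ x0 = 0 := by rw [neg_dotProduct, hθ0, neg_zero]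
  rw [tS_inv y θ hθy, mul_assoc, tS_swap x0 y (-θ) φ hn hn0 hφ, ← mul_assoc,
    tS_mul_right y θ (-θ) hθy hn, add_neg_cancel, tS_zero_right, one_mul, smul_neg,
    sub_eq_add_neg]

theorem tS_pow (a φ : Fin (k + 3) → F) (h : φ ⬝ᵥ a = 0) (n : ℕ) :
    tS a φ ^ n = tS a (n • φ) := by
  induction n with
  | zero => rw [pow_zero, zero_smul, tS_zero_right]
  | succ n ih =>
    rw [pow_succ, ih, tS_mul_right a _ _ (by rw [smul_dotProduct, h, smul_zero]) h, succ_nsmul]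

theorem tS_pow_char (p : ℕ) [CharP F p] (a φ : Fin (k + 3) → F) (h : φ ⬝ᵥ a = 0) :
    tS a φ ^ p = 1 := by
  rw [tS_pow a φ h, ← Nat.cast_smul_eq_nsmul F, CharP.cast_eq_zero, zero_smul, tS_zero_right]

/-- the group of transvections `1 + e₁ ⊗ β` with `β ⊥ e₀, e₁` -/
def Qsub (F : Type*) [Field F] (k : ℕ) : Subgroup (SLk F k) where
  carrier := {g | ∃ β : Fin (k + 3) → F, β 0 = 0 ∧ β 1 = 0 ∧ g = tS (ee F k 1) β}
  one_mem' := ⟨0, rfl, rfl, (tS_zero_right _).symm⟩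
  mul_mem' := by
    rintro _ _ ⟨β, h0, h1, rfl⟩ ⟨β', h0', h1', rfl⟩
    refine ⟨β + β', by simp [h0, h0'], by simp [h1, h1'], ?_⟩
    rw [tS_mul_right _ _ _ (by rw [dot_ee, h1]) (by rw [dot_ee, h1'])]
  inv_mem' := by
    rintro _ ⟨β, h0, h1, rfl⟩
    exact ⟨-β, by simp [h0], by simp [h1], tS_inv _ _ (by rw [dot_ee, h1])⟩

theorem isPGroup_Usub (p : ℕ) [CharP F p] : IsPGroup p (Usub F k) := by
  rintro ⟨g, φ, h0, rfl⟩
  refine ⟨1, Subtype.ext ?_⟩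
  rw [pow_one, Subgroup.coe_pow, Subgroup.coe_one]
  exact tS_pow_char p _ _ (by rw [dot_ee, h0])

theorem isPGroup_Qsub (p : ℕ) [CharP F p] : IsPGroup p (Qsub F k) := by
  rintro ⟨g, β, h0, h1, rfl⟩
  refine ⟨1, Subtype.ext ?_⟩
  rw [pow_one, Subgroup.coe_pow, Subgroup.coe_one]
  exact tS_pow_char p _ _ (by rw [dot_ee, h1])

theorem conjQU (β φ : Fin (k + 3) → F) (hβ0 : β 0 = 0) (hβ1 : β 1 = 0) (hφ : φ 0 = 0) :
    tS (ee F k 1) β * tS (ee F k 0) φ * (tS (ee F k 1) β)⁻¹ ∈ Usub F k := by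
  rw [tS_conj_U _ _ _ _ (by rw [dot_ee, hβ1]) (by rw [dot_ee, hβ0]) (by rw [dot_ee, hφ])]
  exact ⟨_, by simp [hφ, hβ0], rfl⟩

theorem Qsub_le_normalizer : Qsub F k ≤ Subgroup.normalizer (Usub F k : Set (SLk F k)) := by
  rintro _ ⟨β, hβ0, hβ1, rfl⟩
  rw [Subgroup.mem_normalizer_iff]
  intro h
  constructor
  · rintro ⟨φ, hφ, rfl⟩
    exact conjQU β φ hβ0 hβ1 hφ
  · rintro ⟨φ, hφ, he⟩
    have h1 := conjQU (-β) φ (by simp [hβ0]) (by simp [hβ1]) hφ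
    rw [← he, ← tS_inv _ _ (by rw [dot_ee, hβ1])] at h1
    have h2 : (tS (ee F k 1) β)⁻¹ * (tS (ee F k 1) β * h * (tS (ee F k 1) β)⁻¹) *
        (tS (ee F k 1) β)⁻¹⁻¹ = h := by group
    rwa [h2] at h1

theorem nat_orbit_mul_stab {G' : Type*} [Group G'] [Finite G'] {β : Type*} [MulAction G' β]
    (b : β) :
    Nat.card (MulAction.orbit G' b) * Nat.card (MulAction.stabilizer G' b) = Nat.card G' := by
  classical
  have : Fintype G' := Fintype.ofFinite _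
  have : Finite (MulAction.orbit G' b) := (Set.finite_range (fun g : G' => g • b)).to_subtype
  have : Fintype (MulAction.orbit G' b) := Fintype.ofFinite _
  have : Fintype (MulAction.stabilizer G' b) := Fintype.ofFinite _
  rw [Nat.card_eq_fintype_card, Nat.card_eq_fintype_card, Nat.card_eq_fintype_card]
  exact MulAction.card_orbit_mul_card_stabilizer_eq_card_group G' b

theorem dvd_card_of_orbits {G' : Type*} [Group G'] [Finite G'] {β : Type*} [MulAction G' β]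
    [Finite β] (d : ℕ) (h : ∀ b : β, d ∣ Nat.card (MulAction.orbit G' b)) : d ∣ Nat.card β := by
  classical
  have : Fintype G' := Fintype.ofFinite _
  have : Fintype β := Fintype.ofFinite _
  have : Fintype (Quotient (MulAction.orbitRel G' β)) := Fintype.ofFinite _
  rw [Nat.card_eq_fintype_card, MulAction.card_eq_sum_card_group_div_card_stabilizer G' β]
  apply Finset.dvd_sum
  intro a _
  have h1 := nat_orbit_mul_stab (G' := G') a.out
  have h2 : Fintype.card G' / Fintype.card (MulAction.stabilizer G' a.out) =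
      Nat.card (MulAction.orbit G' a.out) := by
    rw [← Nat.card_eq_fintype_card, ← Nat.card_eq_fintype_card]
    exact Nat.div_eq_of_eq_mul_left Nat.card_pos h1.symm
  rw [h2]
  exact h a.out

theorem surj_of_inj_card {α β : Type*} [Finite β] (f : α → β) (hf : Function.Injective f)
    (hc : Nat.card β ≤ Nat.card α) : Function.Surjective f :=
  (hf.bijective_of_nat_card_le hc).2

/-- functionals vanishing on `e₀` and `e₁` -/
abbrev Wt (F : Type*) [Field F] (k : ℕ) := {β : Fin (k + 3) → F // β 0 = 0 ∧ β 1 = 0}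

theorem card_Wt [Finite F] : Nat.card (Wt F k) = Nat.card F ^ (k + 1) := by
  have e : (Fin (k + 1) → F) ≃ Wt F k :=
    { toFun := fun φ' => ⟨(Fin.cons 0 (Fin.cons 0 φ' : Fin (k + 2) → F) : Fin (k + 3) → F),
        Fin.cons_zero _ _, by
          rw [← Fin.succ_zero_eq_one, Fin.cons_succ, Fin.cons_zero]⟩
      invFun := fun φ => Fin.tail (Fin.tail φ.1)
      left_inv := fun φ' => by simp only [Fin.tail_cons]
      right_inv := fun φ => Subtype.ext (by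
        have h0 := φ.2.1
        have h1 := φ.2.2
        have ht : (Fin.tail φ.1) 0 = 0 := by
          show φ.1 (Fin.succ 0) = 0
          rw [Fin.succ_zero_eq_one]; exact h1
        have h2 : Fin.cons (0 : F) (Fin.tail (Fin.tail φ.1)) = Fin.tail φ.1 := by
          have := Fin.cons_self_tail (Fin.tail φ.1)
          rwa [ht] at this
        have h3 : (Fin.cons (0 : F) (Fin.tail φ.1) : Fin (k + 3) → F) = φ.1 := by
          have := Fin.cons_self_tail φ.1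
          rwa [h0] at this
        show (Fin.cons (0 : F) (Fin.cons (0 : F) (Fin.tail (Fin.tail φ.1))) : Fin (k + 3) → F) =
          φ.1
        rw [h2, h3]) }
  rw [← Nat.card_congr e, Nat.card_fun, Nat.card_fin]

theorem exists_good_point [Finite F] [Finite Ω] (p e' : ℕ) [Fact p.Prime] [CharP F p]
    (horb : ∀ ω : Ω, Nat.card (MulAction.orbit (Usub F k) ω) = p ^ e')
    (hndvd : ¬ (p ^ (e' + 1) ∣ Nat.card Ω)) :
    ∃ ω0 : Ω, ∀ β : Fin (k + 3) → F, β 0 = 0 → β 1 = 0 →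
      ∃ φ1 : Fin (k + 3) → F, φ1 0 = 0 ∧ tS (ee F k 1) β • ω0 = tS (ee F k 0) φ1 • ω0 := by
  by_contra hcon
  push Not at hcon
  apply hndvd
  have hR : IsPGroup p (Qsub F k ⊔ Usub F k : Subgroup (SLk F k)) :=
    IsPGroup.to_sup_of_normal_right' (isPGroup_Qsub p) (isPGroup_Usub p) Qsub_le_normalizer
  have : Finite (SLk F k) := inferInstance
  apply dvd_card_of_orbits (G' := (Qsub F k ⊔ Usub F k : Subgroup (SLk F k)))
  intro ω
  obtain ⟨j, hj⟩ := hR.card_orbit ω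
  obtain ⟨β, hβ0, hβ1, hβ⟩ := hcon ω
  have hsub : MulAction.orbit (Usub F k) ω ⊂
      MulAction.orbit (Qsub F k ⊔ Usub F k : Subgroup (SLk F k)) ω := by
    refine ⟨?_, ?_⟩
    · rintro _ ⟨u, rfl⟩
      exact ⟨⟨u.1, (le_sup_right : Usub F k ≤ _) u.2⟩, rfl⟩
    · intro hh
      have hmem : tS (ee F k 1) β • ω ∈
          MulAction.orbit (Qsub F k ⊔ Usub F k : Subgroup (SLk F k)) ω :=
        ⟨⟨tS (ee F k 1) β, (le_sup_left : Qsub F k ≤ _) ⟨β, hβ0, hβ1, rfl⟩⟩, rfl⟩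
      obtain ⟨⟨u, φ1, h0, rfl⟩, hu⟩ := hh hmem
      exact hβ φ1 h0 hu.symm
  have hlt : Nat.card (MulAction.orbit (Usub F k) ω) <
      Nat.card (MulAction.orbit (Qsub F k ⊔ Usub F k : Subgroup (SLk F k)) ω) := by
    rw [Nat.card_coe_set_eq, Nat.card_coe_set_eq]
    exact Set.ncard_lt_ncard hsub (Set.toFinite _)
  rw [horb, hj] at hlt
  rw [hj]
  have hej : e' < j := (Nat.pow_lt_pow_iff_right (Fact.out : p.Prime).one_lt).mp hlt
  exact pow_dvd_pow p hej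

/-- Case II: all `Phi x ω` have index `q` in `x^⊥` -/
theorem caseII [Finite F] [Finite Ω] (p e' : ℕ) [Fact p.Prime] [CharP F p]
    (hPhi : ∀ (ω : Ω) (x : Fin (k + 3) → F), x ≠ 0 → Nat.card (Phi x ω) = Nat.card F ^ (k + 1))
    (horb : ∀ ω : Ω, Nat.card (MulAction.orbit (Usub F k) ω) = p ^ e')
    (hndvd : ¬ (p ^ (e' + 1) ∣ Nat.card Ω)) : False := by
  obtain ⟨ω0, hω0⟩ := exists_good_point p e' horb hndvd
  have h01 := fin_zero_ne_one k
  have h02 := fin_zero_ne_two k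
  have h12 := fin_one_ne_two k
  have hcW : Nat.card (Wt F k) = Nat.card F ^ (k + 1) := card_Wt
  -- invariance
  have hinv : ∀ β : Fin (k + 3) → F, β 0 = 0 → β 1 = 0 → ∀ φ ∈ Phi (ee F k 0) ω0,
      φ - (φ ⬝ᵥ ee F k 1) • β ∈ Phi (ee F k 0) ω0 := by
    intro β hβ0 hβ1 φ hφ
    obtain ⟨φ1, h10, h1⟩ := hω0 β hβ0 hβ1
    have hφ0 : φ ⬝ᵥ ee F k 0 = 0 := hφ.1
    have hβe1 : β ⬝ᵥ ee F k 1 = 0 := by rw [dot_ee, hβ1]
    have hβe0 : β ⬝ᵥ ee F k 0 = 0 := by rw [dot_ee, hβ0]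
    have hφ1e : φ1 ⬝ᵥ ee F k 0 = 0 := by rw [dot_ee, h10]
    have hX : (φ - (φ ⬝ᵥ ee F k 1) • β) ⬝ᵥ ee F k 0 = 0 := by
      rw [sub_dotProduct, smul_dotProduct, hφ0, hβe0, smul_zero, sub_zero]
    obtain ⟨h, hh⟩ : ∃ h : SLk F k, h = (tS (ee F k 0) φ1)⁻¹ * tS (ee F k 1) β := ⟨_, rfl⟩
    have hfixh : h • ω0 = ω0 := by rw [hh, mul_smul, h1, inv_smul_smul]
    have hfixh' : h⁻¹ • ω0 = ω0 := by rw [inv_smul_eq_iff, hfixh]
    have hcj : h * tS (ee F k 0) φ * h⁻¹ = tS (ee F k 0) (φ - (φ ⬝ᵥ ee F k 1) • β) := by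
      calc h * tS (ee F k 0) φ * h⁻¹ = (tS (ee F k 0) φ1)⁻¹ *
            (tS (ee F k 1) β * tS (ee F k 0) φ * (tS (ee F k 1) β)⁻¹) * tS (ee F k 0) φ1 := by
            rw [hh]; group
        _ = (tS (ee F k 0) φ1)⁻¹ * tS (ee F k 0) (φ - (φ ⬝ᵥ ee F k 1) • β) *
            tS (ee F k 0) φ1 := by rw [tS_conj_U _ _ _ _ hβe1 hβe0 hφ0]
        _ = _ := by
          rw [tS_inv _ _ hφ1e, tS_mul_right _ _ _ (by rw [neg_dotProduct, hφ1e, neg_zero]) hX,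
            tS_mul_right _ _ _
              (by rw [add_dotProduct, neg_dotProduct, hφ1e, hX, neg_zero, add_zero]) hφ1e]
          congr 1
          abel
    refine ⟨hX, ?_⟩
    rw [← hcj, mul_smul, mul_smul, hfixh', hφ.2, hfixh]
  have hΦ1 : ∀ φ ∈ Phi (ee F k 0) ω0, φ 1 = 0 := by
    intro φ hφ
    by_contra hne
    have hinj : Function.Injective (fun β : Wt F k =>
        (⟨φ - (φ ⬝ᵥ ee F k 1) • β.1, hinv β.1 β.2.1 β.2.2 φ hφ⟩ : Phi (ee F k 0) ω0)) := by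
      intro β β' hb
      have h1 : φ - (φ ⬝ᵥ ee F k 1) • β.1 = φ - (φ ⬝ᵥ ee F k 1) • β'.1 :=
        congrArg Subtype.val hb
      rw [dot_ee] at h1
      exact Subtype.ext (smul_right_injective _ hne (sub_right_injective h1))
    have hs := surj_of_inj_card _ hinj (le_of_eq (by rw [hcW, hPhi ω0 _ (ee_ne_zero 0)]))
    obtain ⟨β, hβ⟩ := hs 0
    have h1 : φ - (φ ⬝ᵥ ee F k 1) • β.1 = 0 := congrArg Subtype.val hβ
    have h2 := congrFun h1 1
    rw [dot_ee] at h2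
    simp only [Pi.sub_apply, Pi.smul_apply, β.2.2, smul_zero, sub_zero, Pi.zero_apply] at h2
    exact hne h2
  have hΦW : ∀ φ ∈ Phi (ee F k 0) ω0, φ 0 = 0 ∧ φ 1 = 0 := fun φ hφ =>
    ⟨by have := hφ.1; rwa [dot_ee] at this, hΦ1 φ hφ⟩
  have hWΦ : ∀ β : Fin (k + 3) → F, β 0 = 0 → β 1 = 0 → β ∈ Phi (ee F k 0) ω0 := by
    intro β h0 h1
    have hs := surj_of_inj_card
      (fun φ : Phi (ee F k 0) ω0 => (⟨φ.1, hΦW φ.1 φ.2⟩ : Wt F k))
      (fun φ φ' h => Subtype.ext (congrArg (fun w : Wt F k => w.1) h))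
      (le_of_eq (by rw [hcW, hPhi ω0 _ (ee_ne_zero 0)]))
    obtain ⟨φ, hφ⟩ := hs ⟨β, h0, h1⟩
    have h2 : φ.1 = β := congrArg Subtype.val hφ
    rw [← h2]; exact φ.2
  have he2W : ee F k 2 ∈ Phi (ee F k 0) ω0 := hWΦ _ (ee_ne 2 0 h02) (ee_ne 2 1 h12)
  obtain ⟨θ, hθ, hθ0⟩ : ∃ θ ∈ Phi (ee F k 2) ω0, θ 0 ≠ 0 := by
    by_contra hcon
    push Not at hcon
    have hsub : ∀ θ ∈ Phi (ee F k 2) ω0, θ 0 = 0 ∧ θ 1 = 0 := by
      intro θ hθ
      have h := Phi_comm (ee F k 0) (ee F k 2) (ee F k 2) θ ω0 he2W hθ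
        (by rw [dot_ee]; exact hcon θ hθ)
      rw [ee_dot, ee_self, one_smul] at h
      exact hΦW θ h
    have hs := surj_of_inj_card
      (fun φ : Phi (ee F k 2) ω0 => (⟨φ.1, hsub φ.1 φ.2⟩ : Wt F k))
      (fun φ φ' h => Subtype.ext (congrArg (fun w : Wt F k => w.1) h))
      (le_of_eq (by rw [hcW, hPhi ω0 _ (ee_ne_zero 2)]))
    obtain ⟨φ, hφ⟩ := hs ⟨ee F k 2, ee_ne 2 0 h02, ee_ne 2 1 h12⟩
    have h1 : φ.1 = ee F k 2 := congrArg Subtype.val hφ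
    have h2 := φ.2.1
    rw [h1, ee_dot, ee_self] at h2
    exact one_ne_zero h2
  obtain ⟨y, hy⟩ : ∃ y : Fin (k + 3) → F, y = θ 0 • ee F k 1 - θ 1 • ee F k 0 := ⟨_, rfl⟩
  have hy1 : y 1 = θ 0 := by
    rw [hy, Pi.sub_apply, Pi.smul_apply, Pi.smul_apply, ee_self, ee_ne 0 1 h01.symm,
      smul_eq_mul, smul_eq_mul, mul_one, mul_zero, sub_zero]
  have hy0 : y ≠ 0 := fun h => hθ0 (by rw [← hy1, h]; rfl)
  have hdoty : ∀ ψ : Fin (k + 3) → F, ψ ⬝ᵥ y = θ 0 * ψ 1 - θ 1 * ψ 0 := by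
    intro ψ
    rw [hy, dotProduct_sub, dotProduct_smul, dotProduct_smul, dot_ee, dot_ee, smul_eq_mul,
      smul_eq_mul]
  have hθy : θ ⬝ᵥ y = 0 := by rw [hdoty]; ring
  have hY0 : ∀ φ0 ∈ Phi y ω0, φ0 0 = 0 := by
    intro φ0 hφ0
    by_contra hne
    have hmem : ∀ β : Wt F k, (φ0 0) • β.1 ∈ Phi y ω0 := by
      intro β
      have h := Phi_comm y (ee F k 0) φ0 β.1 ω0 hφ0 (hWΦ β.1 β.2.1 β.2.2)
        (by rw [hdoty, β.2.1, β.2.2, mul_zero, mul_zero, sub_zero])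
      rwa [dot_ee] at h
    have hs := surj_of_inj_card (fun β : Wt F k => (⟨(φ0 0) • β.1, hmem β⟩ : Phi y ω0))
      (fun β β' h => Subtype.ext (smul_right_injective _ hne (congrArg Subtype.val h)))
      (le_of_eq (by rw [hcW, hPhi ω0 y hy0]))
    obtain ⟨β, hβ⟩ := hs ⟨φ0, hφ0⟩
    have h1 : (φ0 0) • β.1 = φ0 := congrArg Subtype.val hβ
    have h2 := congrFun h1 0
    rw [Pi.smul_apply, β.2.1, smul_zero] at h2
    exact hne h2.symm
  have hYW : ∀ φ0 ∈ Phi y ω0, φ0 0 = 0 ∧ φ0 1 = 0 := by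
    intro φ0 hφ0
    have h0 := hY0 φ0 hφ0
    have h1 := hφ0.1
    rw [hdoty, h0, mul_zero, sub_zero] at h1
    exact ⟨h0, (mul_eq_zero.mp h1).resolve_left hθ0⟩
  have he2Y : ee F k 2 ∈ Phi y ω0 := by
    have hs := surj_of_inj_card (fun φ : Phi y ω0 => (⟨φ.1, hYW φ.1 φ.2⟩ : Wt F k))
      (fun φ φ' h => Subtype.ext (congrArg (fun w : Wt F k => w.1) h))
      (le_of_eq (by rw [hcW, hPhi ω0 y hy0]))
    obtain ⟨φ, hφ⟩ := hs ⟨ee F k 2, ee_ne 2 0 h02, ee_ne 2 1 h12⟩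
    have h1 : φ.1 = ee F k 2 := congrArg Subtype.val hφ
    rw [← h1]; exact φ.2
  have h := Phi_comm y (ee F k 2) (ee F k 2) θ ω0 he2Y hθ hθy
  rw [ee_dot, ee_self, one_smul] at h
  exact hθ0 (hYW θ h).1

/-- the hypotheses of Case I, from the counting data -/
theorem caseI_data [Finite Ω]
    (hfix0 : ∀ t ∈ tvSet F k, Nat.card (MulAction.fixedBy Ω t) = 0)
    (htr : ∀ ω ω' : Ω, ∃ φ : Fin (k + 3) → F, φ 0 = 0 ∧ tS (ee F k 0) φ • ω = ω') (ω : Ω) :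
    (∀ x φ : Fin (k + 3) → F, x ≠ 0 → φ ≠ 0 → φ ⬝ᵥ x = 0 → tS x φ • ω ≠ ω) ∧
    (∀ g : SLk F k, ∃ φ : Fin (k + 3) → F, φ ⬝ᵥ ee F k 0 = 0 ∧
      (g * tS (ee F k 0) φ) • ω = ω) := by
  refine ⟨fun x φ hx hφ h hfixed => ?_, fun g => ?_⟩
  · have h0 := hfix0 _ (tS_mem x φ hx hφ h)
    have hne : Nonempty (MulAction.fixedBy Ω (tS x φ)) := ⟨⟨ω, hfixed⟩⟩
    have hpos := Nat.card_pos (α := MulAction.fixedBy Ω (tS x φ))
    omega
  · obtain ⟨φ, h0, h⟩ := htr ω (g⁻¹ • ω)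
    exact ⟨φ, by rw [dot_ee]; exact h0, by rw [mul_smul, h, smul_inv_smul]⟩

end Action

theorem fin3_cases : ∀ i : Fin (0 + 3), i = 0 ∨ i = 1 ∨ i = 2 := by decide

/-- Case I is impossible for `SL₃` in characteristic two -/
theorem caseI_char2 {Ω : Type*} [MulAction (SLk F 0) Ω] [Finite Ω] (h2 : (2 : F) = 0)
    (hfix0 : ∀ t ∈ tvSet F 0, Nat.card (MulAction.fixedBy Ω t) = 0)
    (htr : ∀ ω ω' : Ω, ∃ φ : Fin (0 + 3) → F, φ 0 = 0 ∧ tS (ee F 0 0) φ • ω = ω') (ω : Ω) :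
    False := by
  obtain ⟨hfree, htrans⟩ := caseI_data hfix0 htr ω
  refine killA h2 ω (ee F 0 0) (ee F 0 1) (ee F 0 2) hfree htrans ?_ ?_ (ee_ne_zero 0)
    (ee_ne_zero 2) ?_ ?_
  · rw [dot_ee]; exact ee_ne 2 0 (by decide)
  · rw [dot_ee]; exact ee_ne 2 1 (by decide)
  · intro c h
    have h1 := congrFun h 1
    rw [Pi.add_apply, Pi.smul_apply, ee_self, ee_ne 0 1 (by decide), smul_zero, add_zero] at h1
    exact one_ne_zero h1
  · intro φ h0 h1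
    rw [dot_ee] at h0 h1
    refine ⟨φ 2, ?_⟩
    funext i
    rcases fin3_cases i with rfl | rfl | rfl
    · rw [Pi.smul_apply, ee_ne 2 0 (by decide), smul_zero, h0]
    · rw [Pi.smul_apply, ee_ne 2 1 (by decide), smul_zero, h1]
    · rw [Pi.smul_apply, ee_self, smul_eq_mul, mul_one]

/-- Case I is impossible for `SL₄` in odd characteristic -/
theorem caseI_odd {Ω : Type*} [MulAction (SLk F 1) Ω] [Finite Ω] (h2 : (2 : F) ≠ 0)
    (hfix0 : ∀ t ∈ tvSet F 1, Nat.card (MulAction.fixedBy Ω t) = 0)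
    (htr : ∀ ω ω' : Ω, ∃ φ : Fin (1 + 3) → F, φ 0 = 0 ∧ tS (ee F 1 0) φ • ω = ω') (ω : Ω) :
    False := by
  obtain ⟨hfree, htrans⟩ := caseI_data hfix0 htr ω
  refine killB h2 ω (ee F 1 0) (ee F 1 1) (ee F 1 2) (ee F 1 2) (ee F 1 3) hfree htrans
    ?_ ?_ ?_ ?_ ?_ ?_ (ee_ne_zero 0) (ee_ne_zero 3) ?_
  · rw [dot_ee]; exact ee_ne 2 0 (by decide)
  · rw [dot_ee]; exact ee_ne 3 0 (by decide)
  · rw [dot_ee]; exact ee_ne 2 1 (by decide)
  · rw [dot_ee]; exact ee_ne 3 1 (by decide)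
  · rw [dot_ee]; exact ee_self 2
  · rw [dot_ee]; exact ee_ne 3 2 (by decide)
  · intro c h
    have h1 := congrFun h 1
    rw [Pi.add_apply, Pi.smul_apply, ee_self, ee_ne 0 1 (by decide), smul_zero, add_zero] at h1
    exact one_ne_zero h1

theorem charP_of_card [Finite F] (p e : ℕ) (hp : p.Prime) (hq : Nat.card F = p ^ e) :
    CharP F p := by
  obtain ⟨p', hp'⟩ := CharP.exists F
  have := Fintype.ofFinite F
  obtain ⟨n, hprime, hcard⟩ := FiniteField.card F p'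
  have h1 : p' ∣ p ^ e := by
    rw [← hq, Nat.card_eq_fintype_card, hcard]
    exact dvd_pow_self _ n.ne_zero
  have h2 := (Nat.prime_dvd_prime_iff_eq hprime hp).mp (hprime.dvd_of_dvd_pow h1)
  subst h2
  exact hp'

theorem exc_3_2 [Finite F] (hq : Nat.card F = 2) {Ω : Type*} [MulAction (SLk F 0) Ω] [Finite Ω]
    [MulAction.IsPretransitive (SLk F 0) Ω] (hm2 : 2 ≤ Nat.card Ω) :
    Nat.card (ℙ F (Fin (0 + 3) → F)) ≤ Nat.card Ω := by
  by_contra hlt'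
  have hcardP : Nat.card (ℙ F (Fin (0 + 3) → F)) = 7 := by
    rw [Projectivization.card_of_finrank F _ (Module.finrank_fin_fun F), hq]
    decide
  have hlt : Nat.card Ω < Nat.card (ℙ F (Fin (0 + 3) → F)) := by omega
  obtain ⟨v, b, f, hPhi, hvN, hm, hB, hf, hfix, htr, horb⟩ := counting hm2 hlt
  have hN : Nat.card F ^ (0 + 2) = 4 := by rw [hq]; norm_num
  rw [hN] at hvN hm hB
  have h15 : (4 - 1 : ℕ) = 3 := by norm_num
  rw [h15] at hB
  have hv4 : v ≤ 4 := Nat.le_of_dvd (by norm_num) hvN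
  have hv0 : 0 < v := Nat.pos_of_dvd_of_pos hvN (by norm_num)
  have hchar : CharP F 2 := charP_of_card 2 1 Nat.prime_two (by rw [hq]; norm_num)
  have h2 : (2 : F) = 0 := by
    have := CharP.cast_eq_zero F 2
    exact_mod_cast this
  have hne : Nonempty Ω := by
    rw [← Finite.card_pos_iff]; omega
  obtain ⟨ω⟩ := hne
  rw [hcardP] at hlt
  have hcases : (v = 1 ∧ b = 1 ∧ f = 0) ∨ (v = 2 ∧ Nat.card Ω = 6) := by
    interval_cases v <;> omega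
  rcases hcases with ⟨hv1, hb1, hf0⟩ | ⟨hv2, hm6⟩
  · exact caseI_char2 h2 (fun t ht => by rw [hfix t ht, hf0]) (htr hb1) ω
  · have : Fact (Nat.Prime 2) := ⟨Nat.prime_two⟩
    refine caseII (k := 0) 2 1 (fun ω x hx => by rw [hPhi ω x hx, hq, hv2]; norm_num) (fun ω => ?_)
      (by rw [hm6]; norm_num)
    have h := horb ω
    rw [hN, hv2] at h
    omega

theorem exc_3_4 [Finite F] (hq : Nat.card F = 4) {Ω : Type*} [MulAction (SLk F 0) Ω] [Finite Ω]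
    [MulAction.IsPretransitive (SLk F 0) Ω] (hm2 : 2 ≤ Nat.card Ω) :
    Nat.card (ℙ F (Fin (0 + 3) → F)) ≤ Nat.card Ω := by
  by_contra hlt'
  have hcardP : Nat.card (ℙ F (Fin (0 + 3) → F)) = 21 := by
    rw [Projectivization.card_of_finrank F _ (Module.finrank_fin_fun F), hq]
    decide
  have hlt : Nat.card Ω < Nat.card (ℙ F (Fin (0 + 3) → F)) := by omega
  obtain ⟨v, b, f, hPhi, hvN, hm, hB, hf, hfix, htr, horb⟩ := counting hm2 hlt
  have hN : Nat.card F ^ (0 + 2) = 16 := by rw [hq]; norm_num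
  rw [hN] at hvN hm hB
  have h15 : (16 - 1 : ℕ) = 15 := by norm_num
  rw [h15] at hB
  have hv4 : v ≤ 16 := Nat.le_of_dvd (by norm_num) hvN
  have hv0 : 0 < v := Nat.pos_of_dvd_of_pos hvN (by norm_num)
  have hchar : CharP F 2 := charP_of_card 2 2 Nat.prime_two (by rw [hq]; norm_num)
  have h2 : (2 : F) = 0 := by
    have := CharP.cast_eq_zero F 2
    exact_mod_cast this
  have hne : Nonempty Ω := by
    rw [← Finite.card_pos_iff]; omega
  obtain ⟨ω⟩ := hne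
  rw [hcardP] at hlt
  have hcases : (v = 1 ∧ b = 1 ∧ f = 0) ∨ (v = 4 ∧ Nat.card Ω = 20) := by
    interval_cases v <;> omega
  rcases hcases with ⟨hv1, hb1, hf0⟩ | ⟨hv2, hm6⟩
  · exact caseI_char2 h2 (fun t ht => by rw [hfix t ht, hf0]) (htr hb1) ω
  · have : Fact (Nat.Prime 2) := ⟨Nat.prime_two⟩
    refine caseII (k := 0) 2 2 (fun ω x hx => by rw [hPhi ω x hx, hq, hv2]; norm_num) (fun ω => ?_)
      (by rw [hm6]; norm_num)
    have h := horb ω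
    rw [hN, hv2] at h
    omega

theorem exc_4_3 [Finite F] (hq : Nat.card F = 3) {Ω : Type*} [MulAction (SLk F 1) Ω] [Finite Ω]
    [MulAction.IsPretransitive (SLk F 1) Ω] (hm2 : 2 ≤ Nat.card Ω) :
    Nat.card (ℙ F (Fin (1 + 3) → F)) ≤ Nat.card Ω := by
  by_contra hlt'
  have hcardP : Nat.card (ℙ F (Fin (1 + 3) → F)) = 40 := by
    rw [Projectivization.card_of_finrank F _ (Module.finrank_fin_fun F), hq]
    decide
  have hlt : Nat.card Ω < Nat.card (ℙ F (Fin (1 + 3) → F)) := by omega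
  obtain ⟨v, b, f, hPhi, hvN, hm, hB, hf, hfix, htr, horb⟩ := counting hm2 hlt
  have hN : Nat.card F ^ (1 + 2) = 27 := by rw [hq]; norm_num
  rw [hN] at hvN hm hB
  have h15 : (27 - 1 : ℕ) = 26 := by norm_num
  rw [h15] at hB
  have hv4 : v ≤ 27 := Nat.le_of_dvd (by norm_num) hvN
  have hv0 : 0 < v := Nat.pos_of_dvd_of_pos hvN (by norm_num)
  have hchar : CharP F 3 := charP_of_card 3 1 Nat.prime_three (by rw [hq]; norm_num)
  have h2 : (2 : F) ≠ 0 := by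
    intro h
    have h3 : ((2 : ℕ) : F) = 0 := by exact_mod_cast h
    rw [CharP.cast_eq_zero_iff F 3] at h3
    omega
  have hne : Nonempty Ω := by
    rw [← Finite.card_pos_iff]; omega
  obtain ⟨ω⟩ := hne
  rw [hcardP] at hlt
  have hcases : (v = 1 ∧ b = 1 ∧ f = 0) ∨ (v = 9 ∧ Nat.card Ω = 39) := by
    interval_cases v <;> omega
  rcases hcases with ⟨hv1, hb1, hf0⟩ | ⟨hv2, hm6⟩
  · exact caseI_odd h2 (fun t ht => by rw [hfix t ht, hf0]) (htr hb1) ω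
  · have : Fact (Nat.Prime 3) := ⟨Nat.prime_three⟩
    refine caseII (k := 1) 3 1 (fun ω x hx => by rw [hPhi ω x hx, hq, hv2]; norm_num) (fun ω => ?_)
      (by rw [hm6]; norm_num)
    have h := horb ω
    rw [hN, hv2] at h
    omega

end Cfsg.Agent.Lib.Helper53.MinIdxTv
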