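import Mathlib
import Cfsg.Agent.Lib.Helper53.MinIdxTv
import Cfsg.Agent.Lib.Helper39.SLMinMain

/-!
The minimal index of a proper subgroup of `PSL_n(F)`, `n ≥ 3`, `(n, q) ≠ (4, 2)`:
every transitive action of `SL_n(F)` of degree at least two has degree at least the number
of points of the projective space.  The generic case uses the minimal degree of a non-linear
complex representation; the cases `(3, 2)`, `(3, 4)`, `(4, 3)` are done by counting.
-/

set_option autoImplicit false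

namespace Cfsg.Agent.Lib.Helper53.MinIdxMain

open Matrix
open Cfsg.Agent.Lib.Helper39.LSHerm Cfsg.Agent.Lib.Helper39.SLMinTv
open Cfsg.Agent.Lib.Helper83.SLTransv
open Cfsg.Agent.Lib.Helper53.MinIdxTv
open scoped LinearAlgebra.Projectivization

variable {F : Type*} [Field F]

theorem end_comm (A B : (Fin 1 → ℂ) →ₗ[ℂ] (Fin 1 → ℂ)) : A * B = B * A := by
  apply LinearMap.toMatrix'.injective
  rw [LinearMap.toMatrix'_mul, LinearMap.toMatrix'_mul]
  ext i j
  simp [Matrix.mul_apply, Fin.fin_one_eq_zero i, Fin.fin_one_eq_zero j, mul_comm]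

/-- `SL_{m+3}(F)` has no non-trivial one-dimensional representation -/
theorem hperf (m : ℕ) (ρ : Representation ℂ (SLk F m) (Fin 1 → ℂ)) (g : SLk F m) : ρ g = 1 := by
  have hconj : ∀ g h : SLk F m, ρ (g * h * g⁻¹) = ρ h := by
    intro g h
    rw [ρ.map_mul, ρ.map_mul, end_comm (ρ g) (ρ h), mul_assoc, ← ρ.map_mul, mul_inv_cancel,
      ρ.map_one, mul_one]
  have hconst : ∀ t ∈ tvSet F m, ρ t = ρ (stdE F m) := by
    intro t ht
    obtain ⟨g, hg⟩ := exists_conj_of_mem (stdE_mem (F := F) (n := m)) ht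
    rw [hg, hconj]
  have h01 := fin_zero_ne_one m
  have h02 := fin_zero_ne_two m
  have h12 := fin_one_ne_two m
  have hd1 : ee F m 1 ⬝ᵥ ee F m 0 = 0 := by rw [dot_ee]; exact ee_ne 1 0 h01
  have hd2 : ee F m 2 ⬝ᵥ ee F m 0 = 0 := by rw [dot_ee]; exact ee_ne 2 0 h02
  have ht1 : tS (ee F m 0) (ee F m 1) ∈ tvSet F m :=
    tS_mem _ _ (ee_ne_zero 0) (ee_ne_zero 1) hd1
  have ht2 : tS (ee F m 0) (ee F m 2) ∈ tvSet F m :=
    tS_mem _ _ (ee_ne_zero 0) (ee_ne_zero 2) hd2
  have ht3 : tS (ee F m 0) (ee F m 1 + ee F m 2) ∈ tvSet F m :=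
    tS_mem _ _ (ee_ne_zero 0) (by
      intro h
      have h1 := congrFun h 1
      rw [Pi.add_apply, ee_self, ee_ne 2 1 h12, add_zero] at h1
      exact one_ne_zero h1) (by rw [add_dotProduct, hd1, hd2, add_zero])
  have hLL : ρ (stdE F m) * ρ (stdE F m) = ρ (stdE F m) := by
    have h := ρ.map_mul (tS (ee F m 0) (ee F m 1)) (tS (ee F m 0) (ee F m 2))
    rw [tS_mul_right _ _ _ hd1 hd2, hconst _ ht1, hconst _ ht2, hconst _ ht3] at h
    exact h.symm
  have hL1 : ρ (stdE F m) = 1 := by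
    have hinv : ρ (stdE F m) * ρ (stdE F m)⁻¹ = 1 := by
      rw [← ρ.map_mul, mul_inv_cancel, ρ.map_one]
    calc ρ (stdE F m) = ρ (stdE F m) * (ρ (stdE F m) * ρ (stdE F m)⁻¹) := by
          rw [hinv, mul_one]
      _ = ρ (stdE F m) * ρ (stdE F m) * ρ (stdE F m)⁻¹ := by rw [mul_assoc]
      _ = 1 := by rw [hLL, hinv]
  have hle : Subgroup.closure (tvSet F m) ≤ MonoidHom.ker ρ := by
    rw [Subgroup.closure_le]
    intro t ht
    show t ∈ MonoidHom.ker ρ
    rw [MonoidHom.mem_ker, hconst t ht, hL1]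
  rw [closure_tvSet] at hle
  exact MonoidHom.mem_ker.mp (hle (Subgroup.mem_top g))

/-- the lower bound for the index of a proper subgroup -/
theorem index_ge [Fintype F] (m : ℕ) (hexc : ¬ (m + 3 = 4 ∧ Fintype.card F = 2))
    (H : Subgroup (Matrix.ProjectiveSpecialLinearGroup (Fin (m + 3)) F)) (hH : H ≠ ⊤) :
    Nat.card (ℙ F (Fin (m + 3) → F)) ≤ H.index := by
  classical
  let π : SLk F m →* Matrix.ProjectiveSpecialLinearGroup (Fin (m + 3)) F := QuotientGroup.mk' _
  have hπ : Function.Surjective π := QuotientGroup.mk'_surjective _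
  let Ω := Matrix.ProjectiveSpecialLinearGroup (Fin (m + 3)) F ⧸ H
  let act : MulAction (SLk F m) Ω := MulAction.compHom Ω π
  have htrans : MulAction.IsPretransitive (SLk F m) Ω := by
    refine ⟨fun x y => ?_⟩
    obtain ⟨g', hg'⟩ := MulAction.exists_smul_eq
      (Matrix.ProjectiveSpecialLinearGroup (Fin (m + 3)) F) x y
    obtain ⟨g, rfl⟩ := hπ g'
    exact ⟨g, hg'⟩
  have hfin : Finite Ω := inferInstance
  have hcard : Nat.card Ω = H.index := rfl
  have h2 : 2 ≤ Nat.card Ω := by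
    rw [hcard]
    have h0 : H.index ≠ 0 := Subgroup.index_ne_zero_of_finite
    have h1 : H.index ≠ 1 := fun h => hH (Subgroup.index_eq_one.mp h)
    omega
  rw [← hcard]
  by_cases hex : (m = 0 ∧ (Fintype.card F = 2 ∨ Fintype.card F = 4)) ∨
      (m = 1 ∧ Fintype.card F = 3)
  · rcases hex with ⟨rfl, hq | hq⟩ | ⟨rfl, hq⟩
    · exact exc_3_2 (by rw [Nat.card_eq_fintype_card, hq]) h2
    · exact exc_3_4 (by rw [Nat.card_eq_fintype_card, hq]) h2
    · exact exc_4_3 (by rw [Nat.card_eq_fintype_card, hq]) h2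
  · have hex' : ¬ (m + 3 = 3 ∧ (Fintype.card F = 2 ∨ Fintype.card F = 4)) ∧
        ¬ (m + 3 = 4 ∧ (Fintype.card F = 2 ∨ Fintype.card F = 3)) := by
      constructor
      · rintro ⟨h3, hq⟩
        exact hex (Or.inl ⟨by omega, hq⟩)
      · rintro ⟨h4, hq | hq⟩
        · exact hexc ⟨h4, hq⟩
        · exact hex (Or.inr ⟨by omega, hq⟩)
    obtain ⟨k', ρ, hirr, hk2, hk⟩ :=
      Cfsg.Agent.Lib.Helper53.MinIdxChar.exists_irrep (G := SLk F m) Ω h2 (hperf m)
    have hlow := Cfsg.Agent.Lib.Helper39.SLMinMain.lower m hex' k' ρ hirr hk2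
    rw [Projectivization.card_of_finrank F _ (Module.finrank_fin_fun F),
      Nat.card_eq_fintype_card]
    unfold Cfsg.Agent.Lib.Helper39.SLMinArith.S at hlow
    omega

/-- a subgroup of index the number of points: a point stabiliser -/
theorem index_exists [Fintype F] (m : ℕ) :
    ∃ H : Subgroup (Matrix.ProjectiveSpecialLinearGroup (Fin (m + 3)) F),
      H.index = Nat.card (ℙ F (Fin (m + 3) → F)) := by
  classical
  let x0 : ℙ F (Fin (m + 3) → F) := Projectivization.mk F (ee F m 0) (ee_ne_zero 0)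
  exact ⟨MulAction.stabilizer _ x0, MulAction.index_stabilizer_of_transitive _ x0⟩

end Cfsg.Agent.Lib.Helper53.MinIdxMain
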