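import Mathlib

/-!
# S4306 / piece CW : Chevalley–Warning gives a non-fixed vector with totally isotropic orbit
-/

set_option autoImplicit false

namespace Cfsg.Agent.Lib.Helper53.PQCW

universe u

/-- Chevalley–Warning for quadrics: `m` quadratic forms in more than `2 m` variables over a
finite field have a common nontrivial zero. -/
theorem exists_ne_zero_quadrics {K : Type*} [Field K] [Fintype K] {V : Type*} [AddCommGroup V]
    [Module K V] [Module.Finite K V] {ι : Type*} (s : Finset ι) (B : ι → V →ₗ[K] V →ₗ[K] K)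
    (h : 2 * s.card < Module.finrank K V) : ∃ v : V, v ≠ 0 ∧ ∀ i ∈ s, B i v v = 0 := by
  classical
  obtain ⟨p, hp⟩ := CharP.exists K
  haveI := hp
  have hpp : p.Prime := CharP.char_is_prime K p
  obtain ⟨n, hn⟩ : ∃ n, n = Module.finrank K V := ⟨_, rfl⟩
  let e : Module.Basis (Fin n) K V := (Module.finBasis K V).reindex (finCongr hn.symm)
  let f : ι → MvPolynomial (Fin n) K := fun i =>
    ∑ a, ∑ b, MvPolynomial.C (B i (e a) (e b)) * MvPolynomial.X a * MvPolynomial.X b
  have hdeg : ∀ i, (f i).totalDegree ≤ 2 := by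
    intro i
    refine (MvPolynomial.totalDegree_finsetSum _ _).trans (Finset.sup_le fun a _ => ?_)
    refine (MvPolynomial.totalDegree_finsetSum _ _).trans (Finset.sup_le fun b _ => ?_)
    refine (MvPolynomial.totalDegree_mul _ _).trans ?_
    have h1 := MvPolynomial.totalDegree_mul (MvPolynomial.C (B i (e a) (e b)))
      (MvPolynomial.X a : MvPolynomial (Fin n) K)
    rw [MvPolynomial.totalDegree_C, MvPolynomial.totalDegree_X] at h1
    rw [MvPolynomial.totalDegree_X]
    omega
  have heval : ∀ i (x : Fin n → K), MvPolynomial.eval x (f i)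
      = B i (∑ a, x a • e a) (∑ b, x b • e b) := by
    intro i x
    have h1 : B i (∑ a, x a • e a) (∑ b, x b • e b)
        = ∑ a, ∑ b, B i (e a) (e b) * x a * x b := by
      simp only [map_sum, map_smul, LinearMap.sum_apply, LinearMap.smul_apply, smul_eq_mul,
        Finset.mul_sum]
      rw [Finset.sum_comm]
      refine Finset.sum_congr rfl fun a _ => Finset.sum_congr rfl fun b _ => by ring
    rw [h1]
    simp only [f, map_sum, map_mul, MvPolynomial.eval_C, MvPolynomial.eval_X]
  have hsum : ∑ i ∈ s, (f i).totalDegree < Fintype.card (Fin n) := by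
    rw [Fintype.card_fin]
    calc ∑ i ∈ s, (f i).totalDegree ≤ ∑ i ∈ s, 2 := Finset.sum_le_sum fun i _ => hdeg i
      _ = 2 * s.card := by rw [Finset.sum_const, smul_eq_mul, mul_comm]
      _ < n := hn ▸ h
  have hdvd := char_dvd_card_solutions_of_sum_lt p hsum
  have h0 : ∀ i ∈ s, MvPolynomial.eval (0 : Fin n → K) (f i) = 0 := by
    intro i _
    rw [heval]
    simp
  have hcard : 1 < Fintype.card { x : Fin n → K // ∀ i ∈ s, MvPolynomial.eval x (f i) = 0 } := by
    have hpos : 0 < Fintype.card { x : Fin n → K // ∀ i ∈ s, MvPolynomial.eval x (f i) = 0 } :=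
      Fintype.card_pos_iff.mpr ⟨⟨0, h0⟩⟩
    have h1 := Nat.le_of_dvd hpos hdvd
    have h2 := hpp.two_le
    omega
  obtain ⟨⟨x, hx⟩, hne⟩ := Fintype.exists_ne_of_one_lt_card hcard ⟨0, h0⟩
  refine ⟨∑ a, x a • e a, ?_, fun i hi => ?_⟩
  · intro hv
    apply hne
    apply Subtype.ext
    have h1 : e.equivFun.symm x = 0 := by rw [Module.Basis.equivFun_symm_apply]; exact hv
    have h2 := congrArg e.equivFun h1
    rw [LinearEquiv.apply_symm_apply, map_zero] at h2
    exact h2
  · rw [← heval]; exact hx i hi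

/-- module version -/
theorem exists_isotropic_mod {V : Type u} [AddCommGroup V] [Module (ZMod 2) V] [Finite V]
    (b : V →ₗ[ZMod 2] V) (B : ℕ → V →ₗ[ZMod 2] V →ₗ[ZMod 2] ZMod 2) (q : ℕ) (hq : 3 ≤ q)
    (hcard : Nat.card V = Nat.card (LinearMap.ker b) ^ q)
    (hfix : 4 ≤ Nat.card (LinearMap.ker b)) :
    ∃ v ∈ LinearMap.range b, v ≠ 0 ∧ ∀ l ∈ Finset.Icc 1 ((q - 1) / 2), B l v v = 0 := by
  classical
  obtain ⟨k, hk⟩ : ∃ k, k = Module.finrank (ZMod 2) (LinearMap.ker b) := ⟨_, rfl⟩
  obtain ⟨n, hn⟩ : ∃ n, n = Module.finrank (ZMod 2) V := ⟨_, rfl⟩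
  obtain ⟨d, hd⟩ : ∃ d, d = Module.finrank (ZMod 2) (LinearMap.range b) := ⟨_, rfl⟩
  have hrn : d + k = n := by
    rw [hd, hk, hn]; exact LinearMap.finrank_range_add_finrank_ker b
  have hV : Nat.card V = 2 ^ n := by
    rw [Module.natCard_eq_pow_finrank (K := ZMod 2), Nat.card_zmod, hn]
  have hK : Nat.card (LinearMap.ker b) = 2 ^ k := by
    rw [Module.natCard_eq_pow_finrank (K := ZMod 2), Nat.card_zmod, hk]
  rw [hV, hK, ← pow_mul] at hcard
  have hnkq : n = k * q := Nat.pow_right_injective (le_refl 2) hcard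
  rw [hK] at hfix
  have hk2 : 2 ≤ k := by
    by_contra hlt
    have h1 : k ≤ 1 := by omega
    have h2 := Nat.pow_le_pow_right (show 0 < 2 by norm_num) h1
    omega
  have hlt : 2 * (Finset.Icc 1 ((q - 1) / 2)).card < Module.finrank (ZMod 2) (LinearMap.range b) := by
    rw [Nat.card_Icc, ← hd]
    have h1 : 2 * (q - 1) ≤ k * (q - 1) := Nat.mul_le_mul_right (q - 1) hk2
    have h2 : k * q = k * (q - 1) + k := by
      obtain ⟨q', rfl⟩ : ∃ q', q = q' + 1 := ⟨q - 1, by omega⟩
      simp [Nat.mul_succ]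
    omega
  obtain ⟨⟨v, hv⟩, hne, hB⟩ := exists_ne_zero_quadrics (Finset.Icc 1 ((q - 1) / 2))
    (fun l => (B l).compl₁₂ (LinearMap.range b).subtype (LinearMap.range b).subtype) hlt
  exact ⟨v, hv, fun h => hne (Subtype.ext h), fun l hl => by simpa using hB l hl⟩

theorem exists_isotropic_comm {Y : Type u} [CommGroup Y] [Finite Y] (hY : ∀ y : Y, y * y = 1)
    (β : MulAut Y) (q : ℕ) (hq : q.Prime) (hq2 : q ≠ 2) (hβ : β ^ q = 1)
    (c : Y → Y → ZMod 2) (hadd : ∀ x y z : Y, c (x * y) z = c x z + c y z)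
    (halt : ∀ x : Y, c x x = 0) (hsymm : ∀ x y : Y, c x y = c y x)
    (hinv : ∀ x y : Y, c (β x) (β y) = c x y)
    (hcard : Nat.card Y = Nat.card {y : Y // β y = y} ^ q)
    (hfix : 4 ≤ Nat.card {y : Y // β y = y}) :
    ∃ v : Y, β v ≠ v ∧ ∀ i j : ℕ, c ((β ^ i) v) ((β ^ j) v) = 0 := by
  classical
  have hq3 : 3 ≤ q := by have := hq.two_le; omega
  have hinvY : ∀ y : Y, y⁻¹ = y := fun y => inv_eq_of_mul_eq_one_left (hY y)
  have hz : ∀ a : ZMod 2, a = 0 ∨ a = 1 := by decide
  have h11 : (1 : ZMod 2) + 1 = 0 := by decide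
  have hc1 : ∀ z, c 1 z = 0 := by
    intro z
    have h := hadd 1 1 z
    rw [one_mul] at h
    rcases hz (c 1 z) with h0 | h1
    · exact h0
    · rw [h1, h11] at h; exact absurd h (by decide)
  have hc1' : ∀ z, c z 1 = 0 := fun z => by rw [hsymm]; exact hc1 z
  have hadd' : ∀ x y z : Y, c x (y * z) = c x y + c x z := by
    intro x y z
    rw [hsymm, hadd, hsymm y, hsymm z]
  letI : Module (ZMod 2) (Additive Y) := AddCommGroup.zmodModule (n := 2) (fun x => by
    rw [two_nsmul]; exact congrArg Additive.ofMul (hY (Additive.toMul x)))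
  let bL : Additive Y →ₗ[ZMod 2] Additive Y :=
    AddMonoidHom.toZModLinearMap 2 (MonoidHom.toAdditive β.toMonoidHom) - LinearMap.id
  have hbL : ∀ v : Additive Y, bL v = Additive.ofMul (β (Additive.toMul v) / Additive.toMul v) :=
    fun v => rfl
  let B : ℕ → Additive Y →ₗ[ZMod 2] Additive Y →ₗ[ZMod 2] ZMod 2 := fun l =>
    LinearMap.mk₂ (ZMod 2) (fun v w => c (Additive.toMul v) ((β ^ l) (Additive.toMul w)))
      (fun v₁ v₂ w => hadd _ _ _)
      (fun a v w => by
        rcases hz a with rfl | rfl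
        · simp [hc1]
        · simp)
      (fun v w₁ w₂ => by
        show c _ ((β ^ l) (Additive.toMul w₁ * Additive.toMul w₂)) = _
        rw [map_mul, hadd'])
      (fun a v w => by
        rcases hz a with rfl | rfl
        · simp [hc1']
        · simp)
  have hB : ∀ l (v w : Additive Y), B l v w = c (Additive.toMul v) ((β ^ l) (Additive.toMul w)) :=
    fun l v w => rfl
  have hkercard : Nat.card (LinearMap.ker bL) = Nat.card {y : Y // β y = y} := by
    refine Nat.card_congr (Equiv.subtypeEquiv Additive.toMul (fun v => ?_))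
    rw [LinearMap.mem_ker, hbL]
    show β (Additive.toMul v) / Additive.toMul v = 1 ↔ _
    rw [div_eq_one]
  have hcard' : Nat.card (Additive Y) = Nat.card (LinearMap.ker bL) ^ q := by
    rw [hkercard]; exact hcard
  have hfix' : 4 ≤ Nat.card (LinearMap.ker bL) := by rw [hkercard]; exact hfix
  obtain ⟨v, ⟨w, hw⟩, hv0, hBv⟩ := exists_isotropic_mod bL B q hq3 hcard' hfix'
  obtain ⟨y, hy⟩ : ∃ y : Y, y = Additive.toMul v := ⟨_, rfl⟩
  obtain ⟨x, hx⟩ : ∃ x : Y, x = Additive.toMul w := ⟨_, rfl⟩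
  have hyx : y = β x / x := by
    rw [hy, hx, ← hw, hbL]; rfl
  have hy1 : y ≠ 1 := by
    intro h
    apply hv0
    rw [hy] at h
    exact h
  have hP : ∀ l ∈ Finset.Icc 1 ((q - 1) / 2), c y ((β ^ l) y) = 0 := by
    intro l hl
    have := hBv l hl
    rw [hB] at this
    rw [hy]; exact this
  have hinv_pow : ∀ (i : ℕ) (a b : Y), c ((β ^ i) a) ((β ^ i) b) = c a b := by
    intro i
    induction i with
    | zero => intro a b; simp
    | succ i ih =>
      intro a b
      rw [pow_succ, MulAut.mul_apply, MulAut.mul_apply, ih, hinv]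
  have hβq : ∀ a : Y, (β ^ q) a = a := fun a => by rw [hβ]; rfl
  obtain ⟨t, ht⟩ : ∃ t, q = 2 * t + 1 := by
    rcases hq.eq_two_or_odd with h | h
    · exact absurd h hq2
    · exact ⟨q / 2, by omega⟩
  refine ⟨y, ?_, ?_⟩
  · intro hfy
    apply hy1
    -- β (β x) = x
    have h1 : β (β x) * β x = β x * x := by
      have h2 : β y = y := hfy
      rw [hyx, map_div, div_eq_mul_inv, div_eq_mul_inv, hinvY, hinvY] at h2
      exact h2
    have h2 : β (β x) = x := by
      rw [mul_comm (β x) x] at h1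
      exact mul_right_cancel h1
    have h2' : (β ^ 2) x = x := by rw [pow_two, MulAut.mul_apply, h2]
    have h3 : ∀ t : ℕ, ((β ^ 2) ^ t) x = x := by
      intro t
      induction t with
      | zero => simp
      | succ t ih =>
        rw [pow_succ, MulAut.mul_apply, h2', ih]
    have h4 : β x = x := by
      have h5 := hβq x
      rw [ht, pow_succ', pow_mul, MulAut.mul_apply, h3] at h5
      exact h5
    rw [hyx, h4, div_self']
  · have hP' : ∀ d : ℕ, c y ((β ^ d) y) = 0 := by
      intro d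
      rw [pow_eq_pow_mod d hβ]
      have hdq : d % q < q := Nat.mod_lt _ hq.pos
      obtain ⟨e, he⟩ : ∃ e, e = d % q := ⟨_, rfl⟩
      rw [← he] at hdq ⊢
      rcases Nat.eq_zero_or_pos e with h0 | hpos
      · rw [h0, pow_zero]; exact halt y
      · by_cases hle : e ≤ (q - 1) / 2
        · exact hP e (Finset.mem_Icc.mpr ⟨hpos, hle⟩)
        · have hmem : q - e ∈ Finset.Icc 1 ((q - 1) / 2) := by
            rw [Finset.mem_Icc]
            have h2 : (q - 1) / 2 = t := by omega
            rw [h2] at hle ⊢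
            omega
          have h1 := hP (q - e) hmem
          rw [← hinv_pow (q - e) y ((β ^ e) y), ← MulAut.mul_apply, ← pow_add,
            show q - e + e = q by omega, hβq, hsymm]
          exact h1
    intro i j
    rcases le_total i j with hij | hij
    · obtain ⟨d, rfl⟩ := Nat.exists_eq_add_of_le hij
      rw [pow_add, MulAut.mul_apply, hinv_pow]
      exact hP' d
    · obtain ⟨d, rfl⟩ := Nat.exists_eq_add_of_le hij
      rw [hsymm, pow_add, MulAut.mul_apply, hinv_pow]
      exact hP' d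

/-- CW: Chevalley–Warning gives a non-fixed vector with totally isotropic orbit -/
theorem exists_isotropic {Y : Type u} [Group Y] [Finite Y] (hY : ∀ y : Y, y * y = 1)
    (β : MulAut Y) (q : ℕ) (hq : q.Prime) (hq2 : q ≠ 2) (hβ : β ^ q = 1)
    (c : Y → Y → ZMod 2) (hadd : ∀ x y z : Y, c (x * y) z = c x z + c y z)
    (halt : ∀ x : Y, c x x = 0) (hsymm : ∀ x y : Y, c x y = c y x)
    (hinv : ∀ x y : Y, c (β x) (β y) = c x y)
    (hcard : Nat.card Y = Nat.card {y : Y // β y = y} ^ q)
    (hfix : 4 ≤ Nat.card {y : Y // β y = y}) :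
    ∃ v : Y, β v ≠ v ∧ ∀ i j : ℕ, c ((β ^ i) v) ((β ^ j) v) = 0 := by
  have hinvY : ∀ y : Y, y⁻¹ = y := fun y => inv_eq_of_mul_eq_one_left (hY y)
  have hcomm : ∀ x y : Y, x * y = y * x := by
    intro x y
    calc x * y = (x * y)⁻¹ := (hinvY _).symm
      _ = y⁻¹ * x⁻¹ := mul_inv_rev x y
      _ = y * x := by rw [hinvY, hinvY]
  exact @exists_isotropic_comm Y { ‹Group Y› with mul_comm := hcomm } _ hY β q hq hq2 hβ c hadd
    halt hsymm hinv hcard hfix

end Cfsg.Agent.Lib.Helper53.PQCW
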