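import Mathlib

/-!
# S4306 / piece SP : a nondegenerate alternating form on a finite elementary abelian 2-group
lives on a group of order `4 ^ n`.
-/

set_option autoImplicit false

namespace Cfsg.Agent.Lib.Helper53.PQSP

universe u

theorem symplectic_card_aux : ∀ (n : ℕ) (Y : Type u) [Group Y] [Finite Y], Nat.card Y = n →
    (∀ y : Y, y * y = 1) → ∀ (c : Y → Y → ZMod 2),
    (∀ x y z : Y, c (x * y) z = c x z + c y z) → (∀ x : Y, c x x = 0) →
    (∀ x y : Y, c x y = c y x) → (∀ x : Y, x ≠ 1 → ∃ y : Y, c x y ≠ 0) →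
    ∃ k : ℕ, Nat.card Y = 4 ^ k := by
  intro n
  induction n using Nat.strong_induction_on with
  | _ n ih =>
  intro Y _ _ hn hY c hadd halt hsymm hnd
  by_cases htriv : ∀ x : Y, x = 1
  · refine ⟨0, ?_⟩
    rw [pow_zero]
    haveI : Subsingleton Y := ⟨fun a b => by rw [htriv a, htriv b]⟩
    exact Nat.card_of_subsingleton (1 : Y)
  · push Not at htriv
    obtain ⟨x, hx⟩ := htriv
    obtain ⟨y, hxy⟩ := hnd x hx
    have hz : ∀ a : ZMod 2, a = 0 ∨ a = 1 := by decide
    have h11 : (1 : ZMod 2) + 1 = 0 := by decide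
    have hxy1 : c x y = 1 := (hz _).resolve_left hxy
    have hyx1 : c y x = 1 := by rw [hsymm]; exact hxy1
    have hc1 : ∀ z, c 1 z = 0 := by
      intro z
      have h := hadd 1 1 z
      rw [one_mul] at h
      rcases hz (c 1 z) with h0 | h1
      · exact h0
      · rw [h1, h11] at h; exact absurd h (by decide)
    have hadd' : ∀ a b d : Y, c a (b * d) = c a b + c a d := by
      intro a b d
      rw [hsymm, hadd, hsymm b, hsymm d]
    let φ : Y →* Multiplicative (ZMod 2 × ZMod 2) :=
      { toFun := fun h => Multiplicative.ofAdd (c h x, c h y)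
        map_one' := by rw [hc1, hc1]; rfl
        map_mul' := fun a b => by rw [hadd, hadd]; rfl }
    have hφ : ∀ h, φ h = Multiplicative.ofAdd (c h x, c h y) := fun h => rfl
    have hsurj : Function.Surjective φ := by
      intro m
      obtain ⟨⟨a, b⟩, rfl⟩ := Multiplicative.ofAdd.surjective m
      rcases hz a with rfl | rfl <;> rcases hz b with rfl | rfl
      · exact ⟨1, by rw [hφ, hc1, hc1]⟩
      · exact ⟨x, by rw [hφ, halt, hxy1]⟩
      · exact ⟨y, by rw [hφ, halt, hyx1]⟩
      · exact ⟨x * y, by rw [hφ, hadd, hadd, halt, halt, hxy1, hyx1, zero_add, add_zero]⟩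
    have hcardker : Nat.card φ.ker * 4 = Nat.card Y := by
      have h1 := Subgroup.card_mul_index φ.ker
      rw [Subgroup.index_ker, MonoidHom.range_eq_top.mpr hsurj, Subgroup.card_top] at h1
      rw [← h1]
      congr 1
      rw [Nat.card_eq_fintype_card]
      rfl
    have hlt : Nat.card φ.ker < n := by
      rw [← hn, ← hcardker]
      have := Nat.card_pos (α := φ.ker)
      omega
    have hker : ∀ h : Y, h ∈ φ.ker ↔ c h x = 0 ∧ c h y = 0 := by
      intro h
      rw [MonoidHom.mem_ker, hφ]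
      constructor
      · intro hh
        have := congrArg Multiplicative.toAdd hh
        exact Prod.ext_iff.mp this
      · rintro ⟨h1, h2⟩
        rw [h1, h2]; rfl
    obtain ⟨k, hk⟩ := ih _ hlt φ.ker rfl (fun h => Subtype.ext (hY h)) (fun a b => c a b)
      (fun a b d => hadd a b d) (fun a => halt a) (fun a b => hsymm a b) (by
        rintro ⟨h, hh⟩ hne
        obtain ⟨hhx, hhy⟩ := (hker h).mp hh
        obtain ⟨w, hw⟩ := hnd h (fun h1 => hne (Subtype.ext h1))
        rcases hz (c w x) with hwx | hwx <;> rcases hz (c w y) with hwy | hwy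
        · exact ⟨⟨w, (hker w).mpr ⟨hwx, hwy⟩⟩, hw⟩
        · refine ⟨⟨w * x, (hker _).mpr ⟨?_, ?_⟩⟩, ?_⟩
          · rw [hadd, hwx, halt, add_zero]
          · rw [hadd, hwy, hxy1, h11]
          · show c h (w * x) ≠ 0
            rw [hadd', hhx, add_zero]; exact hw
        · refine ⟨⟨w * y, (hker _).mpr ⟨?_, ?_⟩⟩, ?_⟩
          · rw [hadd, hwx, hyx1, h11]
          · rw [hadd, hwy, halt, add_zero]
          · show c h (w * y) ≠ 0
            rw [hadd', hhy, add_zero]; exact hw
        · refine ⟨⟨w * x * y, (hker _).mpr ⟨?_, ?_⟩⟩, ?_⟩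
          · rw [hadd, hadd, hwx, halt, hyx1, add_zero, h11]
          · rw [hadd, hadd, hwy, halt, hxy1, add_zero, h11]
          · show c h (w * x * y) ≠ 0
            rw [hadd', hadd', hhx, hhy, add_zero, add_zero]; exact hw)
    exact ⟨k + 1, by rw [← hcardker, hk, pow_succ]⟩

/-- SP: a nondegenerate alternating form on a finite elementary abelian 2-group -/
theorem symplectic_card {Y : Type u} [Group Y] [Finite Y] (hY : ∀ y : Y, y * y = 1)
    (c : Y → Y → ZMod 2) (hadd : ∀ x y z : Y, c (x * y) z = c x z + c y z)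
    (halt : ∀ x : Y, c x x = 0) (hsymm : ∀ x y : Y, c x y = c y x)
    (hnd : ∀ x : Y, x ≠ 1 → ∃ y : Y, c x y ≠ 0) : ∃ n : ℕ, Nat.card Y = 4 ^ n :=
  symplectic_card_aux _ Y rfl hY c hadd halt hsymm hnd

end Cfsg.Agent.Lib.Helper53.PQSP
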