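import Mathlib
import Cfsg.Agent.Lib.Helper98.PSpStmt

/-!
S3421 piece A2: the normaliser of a cyclic subgroup of order `m₂` has order `2 m₂`.
-/

set_option autoImplicit false

namespace Cfsg.Agent.Lib.Helper53.PSpA2

open Cfsg.Agent.Lib.Helper98

universe u

/-- orbit bound: if `y ∈ A`, `y ≠ 1`, `C_G(y) ≤ A`, then `|N(A)| ≤ |A| * (|A| - 1)` -/
theorem card_normalizer_le {G : Type u} [Group G] [Finite G] (A : Subgroup G) (y : G)
    (hyA : y ∈ A) (hy1 : y ≠ 1) (hcent : ∀ g : G, Commute g y → g ∈ A) :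
    Nat.card (Subgroup.normalizer (A : Set G)) ≤ Nat.card A * (Nat.card A - 1) := by
  classical
  have := Fintype.ofFinite G
  let s : Finset G := (Subgroup.normalizer (A : Set G) : Set G).toFinset
  let a : Finset G := (A : Set G).toFinset
  have hs : Nat.card (Subgroup.normalizer (A : Set G)) = s.card :=
    Nat.card_eq_card_toFinset (Subgroup.normalizer (A : Set G) : Set G)
  have ha : Nat.card A = a.card := Nat.card_eq_card_toFinset (A : Set G)
  have hmem_s : ∀ n, n ∈ s ↔ n ∈ Subgroup.normalizer (A : Set G) := fun n => by simp [s]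
  have hmem_a : ∀ n, n ∈ a ↔ n ∈ A := fun n => by simp [a]
  let f : G → G := fun n => n * y * n⁻¹
  have himg : s.image f ⊆ a.erase 1 := by
    intro b hb
    obtain ⟨n, hn, rfl⟩ := Finset.mem_image.mp hb
    rw [Finset.mem_erase, hmem_a]
    refine ⟨?_, ?_⟩
    · intro h1
      apply hy1
      have : n * y * n⁻¹ = 1 := h1
      calc y = n⁻¹ * (n * y * n⁻¹) * n := by group
        _ = 1 := by rw [this]; group
    · exact (Subgroup.mem_normalizer_iff.mp ((hmem_s n).mp hn) y).mp hyA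
  have hfib : ∀ b ∈ s.image f, (s.filter fun x => f x = b).card ≤ a.card := by
    intro b hb
    obtain ⟨n0, hn0, rfl⟩ := Finset.mem_image.mp hb
    apply Finset.card_le_card_of_injOn (fun n => n0⁻¹ * n)
    · intro n hn
      have hn' := (Finset.mem_filter.mp (Finset.mem_coe.mp hn)).2
      have hn'' : n * y * n⁻¹ = n0 * y * n0⁻¹ := hn'
      show n0⁻¹ * n ∈ (a : Set G)
      rw [Finset.mem_coe, hmem_a]
      apply hcent
      show n0⁻¹ * n * y = y * (n0⁻¹ * n)
      calc n0⁻¹ * n * y = n0⁻¹ * (n * y * n⁻¹) * n := by group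
        _ = n0⁻¹ * (n0 * y * n0⁻¹) * n := by rw [hn'']
        _ = y * (n0⁻¹ * n) := by group
    · intro n1 _ n2 _ h12
      exact mul_left_cancel h12
  have h1 := Finset.card_le_mul_card_image s a.card hfib
  have h2 : (s.image f).card ≤ a.card - 1 := by
    have := Finset.card_le_card himg
    have h3 : (a.erase 1).card = a.card - 1 :=
      Finset.card_erase_of_mem ((hmem_a 1).mpr A.one_mem)
    omega
  rw [hs, ha]
  exact h1.trans (Nat.mul_le_mul_left _ h2)

theorem main (hA1 : PSpStmt.A1.{u}) (hFrob : PSpStmt.FrobCount.{u}) : PSpStmt.A2.{u} := by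
  intro G _ p q m₁ m₂ h y hy
  have := h.fin
  have hm2 : 3 ≤ m₂ := h.m2ge
  have hm1 : 2 ≤ m₁ := h.m1_ge
  have hq5 : 5 ≤ q := h.q_ge
  have hcardA : Nat.card (Subgroup.zpowers y) = m₂ := by rw [Nat.card_zpowers, hy]
  have hAN : Subgroup.zpowers y ≤ Subgroup.normalizer ((Subgroup.zpowers y : Subgroup G) : Set G) :=
    Subgroup.le_normalizer
  have hyA : y ∈ Subgroup.zpowers y := Subgroup.mem_zpowers y
  have hy1 : y ≠ 1 := by
    rintro rfl
    rw [orderOf_one] at hy
    omega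
  have hcent : ∀ c ∈ Subgroup.zpowers y, c ≠ 1 → ∀ g : G, Commute g c → g ∈ Subgroup.zpowers y :=
    fun c hc hc1 g hg => hA1 G p q m₁ m₂ h y c g hy hc hc1 hg
  -- index of A
  have hAidx : (Subgroup.zpowers y).index = 2 * q * m₁ := by
    have h1 := Subgroup.index_mul_card (Subgroup.zpowers y)
    rw [hcardA, h.card] at h1
    have h2 : (Subgroup.zpowers y).index * m₂ = (2 * q * m₁) * m₂ := by rw [h1]
    exact Nat.eq_of_mul_eq_mul_right (by omega) h2
  have hcop : (Nat.card (Subgroup.zpowers y)).Coprime (Subgroup.zpowers y).index := by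
    rw [hcardA, hAidx]
    exact Nat.Coprime.mul_right (Nat.Coprime.mul_right (Nat.coprime_two_right.mpr h.m2odd)
      h.coprime_q2.symm) h.coprime12.symm
  have hcomm : ∀ a ∈ Subgroup.zpowers y, ∀ b ∈ Subgroup.zpowers y, a * b = b * a := by
    intro a ha b hb
    obtain ⟨i, rfl⟩ := Subgroup.mem_zpowers_iff.mp ha
    obtain ⟨j, rfl⟩ := Subgroup.mem_zpowers_iff.mp hb
    rw [← zpow_add, ← zpow_add, add_comm]
  have hidx := hFrob G (Subgroup.zpowers y) hcop hcomm hcent
  rw [hcardA] at hidx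
  -- |N| = m₂ * w
  obtain ⟨w, hw⟩ : Nat.card (Subgroup.zpowers y) ∣
      Nat.card (Subgroup.normalizer ((Subgroup.zpowers y : Subgroup G) : Set G)) :=
    Subgroup.card_dvd_of_le hAN
  rw [hcardA] at hw
  have hle := card_normalizer_le (Subgroup.zpowers y) y hyA hy1 (fun g hg => hcent y hyA hy1 g hg)
  rw [hcardA, hw] at hle
  have hw_le : w ≤ m₂ - 1 := Nat.le_of_mul_le_mul_left hle (by omega)
  have hprod := Subgroup.index_mul_card
    (Subgroup.normalizer ((Subgroup.zpowers y : Subgroup G) : Set G))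
  rw [hw, h.card] at hprod
  set I := (Subgroup.normalizer ((Subgroup.zpowers y : Subgroup G) : Set G)).index with hI
  have hIw : I * w = 2 * q * m₁ := by
    have h2 : (I * w) * m₂ = (2 * q * m₁) * m₂ := by rw [← hprod]; ring
    exact Nat.eq_of_mul_eq_mul_right (by omega) h2
  -- q * m₁ ≡ 1 mod m₂
  obtain ⟨t, ht⟩ : ∃ t, q * m₁ = 1 + m₂ * t := by
    have hsum := h.sum
    rcases h.diff with d | d
    · refine ⟨m₂ + 2 + m₁, ?_⟩
      subst d
      rw [← hsum]; ring
    · obtain ⟨e, he⟩ : ∃ e, m₁ = e + 1 := ⟨m₁ - 1, by omega⟩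
      refine ⟨e + m₁, ?_⟩
      rw [← hsum, d, he]; ring
  have hw2 : w ≡ 2 [MOD m₂] := by
    have h1 : I * w ≡ 1 * w [MOD m₂] := Nat.ModEq.mul_right w hidx
    rw [one_mul, hIw] at h1
    have h2 : 2 * q * m₁ ≡ 2 [MOD m₂] := by
      have : 2 * q * m₁ = 2 + m₂ * (2 * t) := by
        have : 2 * q * m₁ = 2 * (q * m₁) := by ring
        rw [this, ht]; ring
      rw [this]
      show (2 + m₂ * (2 * t)) % m₂ = 2 % m₂
      exact Nat.add_mul_mod_self_left _ _ _
    exact h1.symm.trans h2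
  have hw_eq : w = 2 := by
    have h1 : w % m₂ = 2 % m₂ := hw2
    have h3 : w < m₂ := lt_of_le_of_lt hw_le (Nat.sub_lt (by linarith) Nat.one_pos)
    have h4 : 2 < m₂ := hm2
    rw [Nat.mod_eq_of_lt h3, Nat.mod_eq_of_lt h4] at h1
    exact h1
  rw [hw, hw_eq]; ring

end Cfsg.Agent.Lib.Helper53.PSpA2
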