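import Mathlib
import Cfsg.Agent.Lib.Helper98.PSpStmt

/-!
S3421 piece CARD: `cardP`, `card1`, `card2`.
-/

set_option autoImplicit false

namespace Cfsg.Agent.Lib.Helper53.PSpCARD

open Cfsg.Agent.Lib.Helper98

universe u

/-- a subgroup of exponent dividing `m` has order prime to every `N` prime to `m` -/
theorem card_dvd_of_exp {G : Type u} [Group G] [Finite G] (K : Subgroup G) (m m' N : ℕ)
    (hexp : ∀ c ∈ K, c ^ m = 1) (hG : Nat.card G = m' * N) (hcop : Nat.Coprime m N) :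
    Nat.card K ∣ m' := by
  have hd : Nat.card K ∣ m' * N := hG ▸ Subgroup.card_subgroup_dvd_card K
  have hc : Nat.Coprime (Nat.card K) N := by
    by_contra hne
    obtain ⟨r, hr, hrd⟩ := Nat.exists_prime_and_dvd hne
    have hrK : r ∣ Nat.card K := hrd.trans (Nat.gcd_dvd_left _ _)
    have hrN : r ∣ N := hrd.trans (Nat.gcd_dvd_right _ _)
    have : Fact r.Prime := ⟨hr⟩
    obtain ⟨c, hc⟩ := exists_prime_orderOf_dvd_card' r hrK
    have h1 : (c : G) ^ m = 1 := hexp c c.2
    have h2 : c ^ m = 1 := Subtype.ext (by simpa using h1)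
    have h3 : r ∣ m := hc ▸ orderOf_dvd_of_pow_eq_one h2
    have h4 : r ∣ Nat.gcd m N := Nat.dvd_gcd h3 hrN
    rw [hcop.gcd_eq_one] at h4
    exact hr.one_lt.ne' (Nat.dvd_one.mp h4)
  exact hc.dvd_of_dvd_mul_right hd

theorem cardP : PSpStmt.CardP.{u} := by
  intro G _ p q m₁ m₂ h P
  have := h.fin
  have : Fact p.Prime := ⟨h.pp⟩
  obtain ⟨f, hf⟩ := h.qpow
  have hcard := h.card
  have h1 : q ∣ Nat.card (P : Subgroup G) := by
    rw [hf]
    apply P.pow_dvd_card_of_pow_dvd_card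
    rw [hcard, hf]
    exact ⟨2 * m₁ * m₂, by ring⟩
  obtain ⟨k, hk⟩ := (IsPGroup.iff_card.mp P.isPGroup')
  have h2 : Nat.card (P : Subgroup G) ∣ q := by
    have hd : Nat.card (P : Subgroup G) ∣ Nat.card G := Subgroup.card_subgroup_dvd_card _
    rw [hcard] at hd
    have hcop : Nat.Coprime (Nat.card (P : Subgroup G)) (2 * m₁ * m₂) := by
      rw [hk]
      apply Nat.Coprime.pow_left
      rw [Nat.Prime.coprime_iff_not_dvd h.pp]
      intro hd'
      rcases (Nat.Prime.dvd_mul h.pp).mp hd' with h3 | h3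
      · rcases (Nat.Prime.dvd_mul h.pp).mp h3 with h4 | h4
        · exact h.podd ((Nat.prime_dvd_prime_iff_eq h.pp Nat.prime_two).mp h4)
        · exact h.p_not_dvd1 h4
      · exact h.p_not_dvd2 h3
    have e : 2 * q * m₁ * m₂ = q * (2 * m₁ * m₂) := by ring
    rw [e] at hd
    exact hcop.dvd_of_dvd_mul_right hd
  exact Nat.dvd_antisymm h2 h1

theorem card1 : PSpStmt.Card1.{u} := by
  intro G _ p q m₁ m₂ h K hK
  have := h.fin
  refine card_dvd_of_exp K m₁ (2 * m₁) (q * m₂) hK ?_ ?_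
  · rw [h.card]; ring
  · exact Nat.Coprime.mul_right h.coprime_q1.symm h.coprime12

theorem card2 : PSpStmt.Card2.{u} := by
  intro G _ p q m₁ m₂ h K hK
  have := h.fin
  refine card_dvd_of_exp K m₂ m₂ (2 * q * m₁) hK ?_ ?_
  · rw [h.card]; ring
  · refine Nat.Coprime.mul_right (Nat.Coprime.mul_right ?_ h.coprime_q2.symm) h.coprime12.symm
    exact Nat.coprime_two_right.mpr h.m2odd

end Cfsg.Agent.Lib.Helper53.PSpCARD
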