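import Mathlib
import Cfsg.Agent.Lib.Helper98.PSpStmt

/-!
S3421 piece CT: the centraliser of the involution of a cyclic subgroup of order `m₁` has
order `2 m₁`.
-/

set_option autoImplicit false

namespace Cfsg.Agent.Lib.Helper53.PSpCT

open Cfsg.Agent.Lib.Helper98

universe u

theorem main (hCent1 : PSpStmt.Cent1.{u}) (hCard1 : PSpStmt.Card1.{u}) (hIdx2 : PSpStmt.Idx2.{u}) :
    PSpStmt.CT.{u} := by
  intro G _ p q m₁ m₂ h x hx
  have := h.fin
  have hm1 : 2 ≤ m₁ := h.m1_ge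
  have hm2 : 3 ≤ m₂ := h.m2ge
  have hq5 : 5 ≤ q := h.q_ge
  have hm1ne : m₁ ≠ 0 := by omega
  obtain ⟨e, he⟩ := h.m1even
  have hhalf : m₁ / 2 = e := by omega
  set t : G := x ^ (m₁ / 2) with ht
  have ht1 : t ≠ 1 := by
    apply pow_ne_one_of_lt_orderOf (by omega)
    rw [hx]; omega
  have htm : t ^ m₁ = 1 := by
    rw [ht, ← pow_mul, mul_comm, pow_mul, ← hx, pow_orderOf_eq_one, one_pow]
  set C : Subgroup G := Subgroup.centralizer ({t} : Set G) with hC
  have hmemC : ∀ g : G, g ∈ C ↔ t * g = g * t := by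
    intro g
    rw [hC, Subgroup.mem_centralizer_iff]
    simp
  -- exponent and order bound
  have hexp : ∀ c ∈ C, c ^ m₁ = 1 := by
    intro c hc
    exact hCent1 G p q m₁ m₂ h t c ht1 htm ((hmemC c).mp hc).symm
  have hdvd : Nat.card C ∣ 2 * m₁ := hCard1 G p q m₁ m₂ h C hexp
  -- B ≤ C
  have hBC : Subgroup.zpowers x ≤ C := by
    intro b hb
    obtain ⟨i, rfl⟩ := Subgroup.mem_zpowers_iff.mp hb
    rw [hmemC]
    exact ((Commute.refl x).pow_left (m₁ / 2)).zpow_right i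
  have hm1C : m₁ ∣ Nat.card C := by
    have h1 := Subgroup.card_dvd_of_le hBC
    rwa [Nat.card_zpowers, hx] at h1
  -- the 2-part
  set a := m₁.factorization 2 with ha
  have ha1 : 0 < a := Nat.Prime.factorization_pos_of_dvd Nat.prime_two hm1ne (by omega)
  obtain ⟨a', ha'⟩ : ∃ a', a = a' + 1 := ⟨a - 1, by omega⟩
  obtain ⟨d, hd⟩ : 2 ^ a ∣ m₁ := Nat.ordProj_dvd m₁ 2
  have hd0 : d ≠ 0 := by
    rintro rfl
    simp at hd
    omega
  have hx2 : orderOf (x ^ d) = 2 ^ a := by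
    have h1 : orderOf (x ^ d) = orderOf x / d :=
      orderOf_pow_of_dvd hd0 (by rw [hx]; exact Dvd.intro_left _ hd.symm)
    rw [h1, hx]
    conv_lhs => rw [hd]
    exact Nat.mul_div_cancel _ (Nat.pos_of_ne_zero hd0)
  have hpg : IsPGroup 2 (Subgroup.zpowers (x ^ d)) :=
    IsPGroup.of_card (n := a) (by rw [Nat.card_zpowers, hx2])
  have : Fact (Nat.Prime 2) := ⟨Nat.prime_two⟩
  obtain ⟨T, hT⟩ := hpg.exists_le_sylow
  have hfac : (Nat.card G).factorization 2 = a + 1 := by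
    have e1 : Nat.card G = 2 * m₁ * (q * m₂) := by rw [h.card]; ring
    have hodd : ¬ 2 ∣ q * m₂ := by
      rw [← even_iff_two_dvd, Nat.not_even_iff_odd]
      exact h.q_odd.mul h.m2odd
    rw [e1, Nat.factorization_mul (by positivity) (by positivity),
      Nat.factorization_mul (by norm_num) hm1ne]
    simp only [Finsupp.add_apply]
    rw [Nat.factorization_eq_zero_of_not_dvd hodd, Nat.Prime.factorization_self Nat.prime_two]
    omega
  have hcardT : Nat.card (T : Subgroup G) = 2 * 2 ^ a := by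
    rw [Sylow.card_eq_multiplicity, hfac, pow_succ, mul_comm]
  have hidx := (hIdx2 G (x ^ d) (T : Subgroup G) (2 ^ a) (by positivity)
    (by rw [ha', pow_succ]; exact ⟨2 ^ a', by ring⟩)
    hx2 (hT (Subgroup.mem_zpowers _)) hcardT).2
  have hpow : (x ^ d) ^ (2 ^ a / 2) = t := by
    have h1 : 2 ^ a / 2 = 2 ^ a' := by
      rw [ha', pow_succ]; exact Nat.mul_div_cancel _ (by norm_num)
    have h2 : m₁ / 2 = d * 2 ^ a' := by
      rw [hd, ha', pow_succ]
      have : 2 ^ a' * 2 * d = (d * 2 ^ a') * 2 := by ring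
      rw [this]; exact Nat.mul_div_cancel _ (by norm_num)
    rw [h1, ht, h2, pow_mul]
  rw [hpow] at hidx
  have hTC : (T : Subgroup G) ≤ C := by
    intro g hg
    rw [hmemC]
    exact (hidx g hg).symm
  have h2C : 2 ^ (a + 1) ∣ Nat.card C := by
    have h1 := Subgroup.card_dvd_of_le hTC
    rw [hcardT] at h1
    rwa [pow_succ, mul_comm]
  -- conclusion
  obtain ⟨j, hj⟩ := hm1C
  have hj2 : j ∣ 2 := by
    rw [hj] at hdvd
    have : m₁ * j ∣ m₁ * 2 := by rwa [mul_comm m₁ 2]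
    exact (Nat.mul_dvd_mul_iff_left (by omega)).mp this
  have hj' : j = 1 ∨ j = 2 := (Nat.dvd_prime Nat.prime_two).mp hj2
  rcases hj' with rfl | rfl
  · exfalso
    rw [hj, mul_one] at h2C
    exact Nat.pow_succ_factorization_not_dvd hm1ne Nat.prime_two h2C
  · show Nat.card C = 2 * m₁
    rw [hj, mul_comm]

end Cfsg.Agent.Lib.Helper53.PSpCT
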