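import Mathlib
import Cfsg.Agent.Lib.Helper98.PSpStmt

/-!
S3421 pieces SYLA and SYLB: `sylA`, `sylB`.
-/

set_option autoImplicit false

namespace Cfsg.Agent.Lib.Helper53.PSpSYL

open Cfsg.Agent.Lib.Helper98

universe u

/-- if `y0` has order `m`, `|G| = m * N` and `r ∤ N`, every `r`-subgroup lies in a conjugate of
`⟨y0⟩` -/
theorem syl_cyc {G : Type u} [Group G] [Finite G] (r : ℕ) [Fact r.Prime] (y0 : G) (m N : ℕ)
    (hy : orderOf y0 = m) (hm : 0 < m) (hG : Nat.card G = m * N) (hN : N ≠ 0) (hr : ¬ r ∣ N)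
    (R : Subgroup G) (hR : IsPGroup r R) :
    ∃ y : G, orderOf y = m ∧ R ≤ Subgroup.zpowers y := by
  obtain ⟨d, hd⟩ : r ^ (m.factorization r) ∣ m := Nat.ordProj_dvd m r
  have hd0 : d ≠ 0 := by
    rintro rfl
    simp at hd
    omega
  have hz : orderOf (y0 ^ d) = r ^ (m.factorization r) := by
    have h1 : orderOf (y0 ^ d) = orderOf y0 / d :=
      orderOf_pow_of_dvd hd0 (by rw [hy]; exact Dvd.intro_left _ hd.symm)
    rw [h1, hy]
    conv_lhs => rw [hd]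
    exact Nat.mul_div_cancel _ (Nat.pos_of_ne_zero hd0)
  have hfac : (Nat.card G).factorization r = m.factorization r := by
    rw [hG, Nat.factorization_mul hm.ne' hN]
    simp [Nat.factorization_eq_zero_of_not_dvd hr]
  have hcardZ : Nat.card (Subgroup.zpowers (y0 ^ d)) = r ^ (Nat.card G).factorization r := by
    rw [Nat.card_zpowers, hz, hfac]
  let Z : Sylow r G := Sylow.ofCard (Subgroup.zpowers (y0 ^ d)) hcardZ
  have hZ : (Z : Subgroup G) = Subgroup.zpowers (y0 ^ d) := rfl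
  obtain ⟨S, hS⟩ := hR.exists_le_sylow
  obtain ⟨g, hg⟩ := MulAction.exists_smul_eq G Z S
  refine ⟨g * y0 * g⁻¹, ?_, ?_⟩
  · have h1 := (MulAut.conj g).orderOf_eq y0
    rw [MulAut.conj_apply] at h1
    rw [h1, hy]
  · intro x hx
    have hxS : x ∈ (S : Subgroup G) := hS hx
    rw [← hg, Sylow.coe_subgroup_smul, hZ] at hxS
    obtain ⟨z', hz', hz'x⟩ := (Subgroup.mem_smul_pointwise_iff_exists x (MulAut.conj g) _).mp hxS
    obtain ⟨j, rfl⟩ := Subgroup.mem_zpowers_iff.mp hz'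
    have hx' : x = g * (y0 ^ d) ^ j * g⁻¹ := by
      rw [← hz'x]; rfl
    rw [hx', Subgroup.mem_zpowers_iff]
    refine ⟨d * j, ?_⟩
    rw [conj_zpow, zpow_mul, zpow_natCast]

theorem sylA : PSpStmt.SylA.{u} := by
  intro G _ p q m₁ m₂ h r hr hrm R hR
  have := h.fin
  have : Fact r.Prime := ⟨hr⟩
  obtain ⟨y0, hy0⟩ := h.ex2
  have hm2 : 0 < m₂ := by have := h.m2ge; omega
  have hm1 : 0 < m₁ := by have := h.m1_ge; omega
  have hq : 0 < q := by have := h.q_ge; omega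
  refine syl_cyc r y0 m₂ (2 * q * m₁) hy0 hm2 (by rw [h.card]; ring) (by positivity) ?_ R hR
  intro hd
  have hc : Nat.Coprime m₂ (2 * q * m₁) :=
    Nat.Coprime.mul_right (Nat.Coprime.mul_right (Nat.coprime_two_right.mpr h.m2odd)
      h.coprime_q2.symm) h.coprime12.symm
  have h4 : r ∣ Nat.gcd m₂ (2 * q * m₁) := Nat.dvd_gcd hrm hd
  rw [hc.gcd_eq_one] at h4
  exact hr.one_lt.ne' (Nat.dvd_one.mp h4)

theorem sylB : PSpStmt.SylB.{u} := by
  intro G _ p q m₁ m₂ h r hr hr2 hrm R hR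
  have := h.fin
  have : Fact r.Prime := ⟨hr⟩
  obtain ⟨x0, hx0⟩ := h.ex1
  have hm2 : 0 < m₂ := by have := h.m2ge; omega
  have hm1 : 0 < m₁ := by have := h.m1_ge; omega
  have hq : 0 < q := by have := h.q_ge; omega
  refine syl_cyc r x0 m₁ (2 * q * m₂) hx0 hm1 (by rw [h.card]; ring) (by positivity) ?_ R hR
  intro hd
  rcases (Nat.Prime.dvd_mul hr).mp hd with h3 | h3
  · rcases (Nat.Prime.dvd_mul hr).mp h3 with h4 | h4
    · exact hr2 ((Nat.prime_dvd_prime_iff_eq hr Nat.prime_two).mp h4)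
    · have h5 : r ∣ Nat.gcd q m₁ := Nat.dvd_gcd h4 hrm
      rw [h.coprime_q1.gcd_eq_one] at h5
      exact hr.one_lt.ne' (Nat.dvd_one.mp h5)
  · have h5 : r ∣ Nat.gcd m₁ m₂ := Nat.dvd_gcd hrm h3
    rw [h.coprime12.gcd_eq_one] at h5
    exact hr.one_lt.ne' (Nat.dvd_one.mp h5)

end Cfsg.Agent.Lib.Helper53.PSpSYL
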