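import Mathlib
import Cfsg.Agent.Lib.Helper22.S56Stmt
import Cfsg.Agent.Lib.Helper91.Hall
import Cfsg.Agent.Lib.Helper76.PSolv

set_option autoImplicit false

/-! S1356 piece HALLD (helper53): an `R`-invariant complement `D` of `O = Oq X H q` in `H`.
Route: `O` is a normal `q`-subgroup with `q ∤ O.index`; `R` is a `q'`-subgroup of the solvable
`X`, so it lies in a subgroup `T` of order `O.index` (`Helper91.Hall.hall_contain`), a complement
of `O`; `D = T ⊓ H`. -/

namespace Cfsg.Agent.Lib.Helper53.S56HALLD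

universe u

open Cfsg Cfsg.Agent.Lib.Helper93.S64Stmt Cfsg.Agent.Lib.Helper22.S56Stmt

theorem main : HallD.{u} := by
  intro X _ _ H R _ q hA hB hqO
  have hq : q.Prime := hB.qprime
  have : Fact q.Prime := ⟨hq⟩
  have : Group.IsSolvable X := hA.solv
  set O : Subgroup X := Oq X H q with hOdef
  have hOH : O ≤ H := Oq_le X H q
  have hOp : IsPGroup q ↥O :=
    (Cfsg.Agent.Lib.Helper76.PSolv.pCore_isPGroup (G := X) q).to_le inf_le_left
  obtain ⟨k, hk⟩ := IsPGroup.iff_card.mp hOp
  have hcopq : (O.index).Coprime q :=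
    (Nat.Coprime.symm ((Nat.Prime.coprime_iff_not_dvd hq).2 hqO))
  have hcop : (O.index).Coprime (Nat.card ↥O) := by
    rw [hk]; exact Nat.Coprime.pow_right k hcopq
  -- `q ∤ |R|`
  have hqH : q ∣ Nat.card ↥H := by
    have h1 : Nat.card ↥(H ⊓ Subgroup.centralizer (R : Set X)) ∣ Nat.card ↥H :=
      Subgroup.card_dvd_of_le inf_le_left
    rwa [hB.card] at h1
  have hqR : ¬ q ∣ Nat.card ↥R := by
    intro h
    have h1 : q ∣ Nat.gcd (Nat.card ↥H) (Nat.card ↥R) := Nat.dvd_gcd hqH h
    rw [Nat.Coprime.gcd_eq_one hA.cop] at h1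
    exact hq.one_lt.ne' (Nat.dvd_one.mp h1)
  have hRO : (Nat.card ↥R).Coprime (Nat.card ↥O) := by
    rw [hk]
    exact Nat.Coprime.pow_right k (Nat.Coprime.symm ((Nat.Prime.coprime_iff_not_dvd hq).2 hqR))
  have hX : Nat.card X = O.index * Nat.card ↥O := by
    rw [mul_comm]; exact (Subgroup.card_mul_index O).symm
  obtain ⟨T, hT, hRT⟩ := Cfsg.Agent.Lib.Helper91.Hall.hall_contain (G := X) O.index
    (Nat.card ↥O) hX hcop R hRO
  have hcompl : Subgroup.IsComplement' O T := by
    apply Subgroup.isComplement'_of_coprime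
    · rw [hT]; exact Subgroup.card_mul_index O
    · rw [hT]; exact hcop.symm
  have hdisj : O ⊓ T = ⊥ := disjoint_iff.mp hcompl.disjoint
  refine ⟨T ⊓ H, inf_le_right, ?_, ?_, ?_, ?_⟩
  · rw [eq_bot_iff, ← hdisj]
    exact le_inf inf_le_right (inf_le_left.trans inf_le_left)
  · intro h hh
    obtain ⟨⟨⟨o, ho⟩, ⟨t, ht⟩⟩, hot, -⟩ := hcompl.existsUnique h
    have hot' : o * t = h := hot
    have htH : t ∈ H := by
      have : t = o⁻¹ * h := by rw [← hot']; group
      rw [this]
      exact H.mul_mem (H.inv_mem (hOH ho)) hh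
    rw [← hot']
    exact Subgroup.mul_mem_sup ho ⟨ht, htH⟩
  · intro r hr
    rw [Subgroup.mem_normalizer_iff]
    intro n
    have hrT : r ∈ T := hRT hr
    constructor
    · rintro ⟨hnT, hnH⟩
      exact ⟨T.mul_mem (T.mul_mem hrT hnT) (T.inv_mem hrT),
        (inferInstance : H.Normal).conj_mem n hnH r⟩
    · rintro ⟨hnT, hnH⟩
      have e : n = r⁻¹ * (r * n * r⁻¹) * r := by group
      constructor
      · show n ∈ T
        rw [e]
        exact T.mul_mem (T.mul_mem (T.inv_mem hrT) hnT) hrT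
      · show n ∈ H
        have h2 := (inferInstance : H.Normal).conj_mem (r * n * r⁻¹) hnH r⁻¹
        rw [inv_inv] at h2
        rw [e]; exact h2
  · have h1 : Nat.card ↥(T ⊓ H) ∣ O.index := by
      rw [← hT]; exact Subgroup.card_dvd_of_le inf_le_left
    exact Nat.Coprime.coprime_dvd_left h1 hcopq

end Cfsg.Agent.Lib.Helper53.S56HALLD
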