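import Mathlib
import Cfsg.Agent.Lib.Helper14.TC3Stmt
import Cfsg.Agent.Lib.Helper3.TDBasic
import Cfsg.Agent.Lib.Helper3.TDTak
import Cfsg.Agent.Lib.Helper67.TC3H1

/-!
# S4460 piece H3 (helper14's call): from `[χ₁ χ₂, ψ] ≠ 0` to `ψ' = n` on the commutator subgroup
where `χ` does not vanish.
-/

set_option autoImplicit false

namespace Cfsg.Agent.Lib.Helper53.TC3H3

open Cfsg Cfsg.Agent.Lib.Helper14.TC3Stmt
open Cfsg.Agent.Lib.Helper80.Integrality
open scoped ComplexConjugate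

universe u

theorem arith (m n A B : ℕ) (hcop : Nat.Coprime m n) (hm : 1 < m) (hmn : m < n) (hA : 1 ≤ A)
    (h : m * n = m * A + n * B) : A = n ∧ B = 0 := by
  have h1 : n ∣ m * A := by
    have h2 : n ∣ m * A + n * B := by rw [← h]; exact dvd_mul_left n m
    exact (Nat.dvd_add_left (dvd_mul_right n B)).1 h2
  have h3 : n ∣ A := Nat.Coprime.dvd_of_dvd_mul_left hcop.symm h1
  have h4 : n ≤ A := Nat.le_of_dvd hA h3
  have h5 : m * n ≤ m * A := Nat.mul_le_mul_left m h4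
  have h6 : n * B = 0 := by omega
  have h7 : B = 0 := by
    rcases Nat.mul_eq_zero.1 h6 with h | h
    · omega
    · exact h
  subst h7
  have h8 : m * n = m * A := by omega
  exact ⟨(Nat.eq_of_mul_eq_mul_left (by omega) h8).symm, rfl⟩

theorem main (h1 : H1.{u}) : H3.{u} := by
  intro G _ _ m n hD hcop hm hmn χ₁ χ₂ ψ hχ₁ hχ₂ hψ hne
  classical
  haveI := Cfsg.Agent.Lib.Helper3.Irr.finite_irrCharacter (G := G)
  haveI : Fintype (IrrCharacter G) := Fintype.ofFinite _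
  obtain ⟨lam, hlam1, hlam⟩ := h1 G m n hD hcop hmn χ₁ χ₂ ψ hχ₁ hχ₂ hψ hne
  have hlamc : IsCharacter G (lam : G → ℂ) := isCharacter_of_isIrrCharacter lam.2
  have hlam1' : (lam : G → ℂ) 1 = 1 := by
    rw [apply_one_eq_charDegree hlamc, hlam1]
    simp
  have hχ₁c : IsCharacter G (χ₁ : G → ℂ) := isCharacter_of_isIrrCharacter χ₁.2
  have hχ₁one : (χ₁ : G → ℂ) 1 = (m : ℂ) := by rw [apply_one_eq_charDegree hχ₁c, hχ₁]
  have hψc : IsCharacter G (ψ : G → ℂ) := isCharacter_of_isIrrCharacter ψ.2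
  have hψone : (ψ : G → ℂ) 1 = (n : ℂ) := by rw [apply_one_eq_charDegree hψc, hψ]
  -- the conjugate of `lam`
  have hμ₀c : IsCharacter G (fun g => conj ((lam : G → ℂ) g)) :=
    isCharacter_of_isIrrCharacter (Cfsg.Agent.Lib.Helper67.TC3H1.conj_irr lam.2)
  have hμ₀1 : (fun g => conj ((lam : G → ℂ) g)) 1 = 1 := by
    show conj ((lam : G → ℂ) 1) = 1
    rw [hlam1', map_one]
  have hψ'irr : IsIrrCharacter G ((fun g => conj ((lam : G → ℂ) g)) * (ψ : G → ℂ)) :=
    Cfsg.Agent.Lib.CT.LinChar.isIrrCharacter_linear_mul hμ₀c hμ₀1 ψ.2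
  obtain ⟨ψ', hψ'def⟩ : ∃ ψ' : IrrCharacter G,
      ψ' = ⟨(fun g => conj ((lam : G → ℂ) g)) * (ψ : G → ℂ), hψ'irr⟩ := ⟨_, rfl⟩
  have hψ'val : ∀ g, (ψ' : G → ℂ) g = conj ((lam : G → ℂ) g) * (ψ : G → ℂ) g := by
    intro g
    rw [hψ'def]
    rfl
  have hψ'c : IsCharacter G (ψ' : G → ℂ) := isCharacter_of_isIrrCharacter ψ'.2
  have hψ'one : (ψ' : G → ℂ) 1 = (n : ℂ) := by
    rw [hψ'val, hlam1', map_one, one_mul, hψone]
  have hψ'deg : charDegree (ψ' : G → ℂ) = n := by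
    have h2 := apply_one_eq_charDegree hψ'c
    rw [hψ'one] at h2
    exact_mod_cast h2.symm
  refine ⟨χ₁, ψ', hχ₁, hψ'deg, ?_⟩
  -- the character `Θ = χ₁ ψ'`
  have hΘc : IsCharacter G ((χ₁ : G → ℂ) * (ψ' : G → ℂ)) :=
    Cfsg.Agent.Lib.CT.Ops.isCharacter_mul hχ₁c hψ'c
  obtain ⟨a, ha, hexp, hdeg, -⟩ := Cfsg.Agent.Lib.Helper80.Restrict.exists_mult hΘc
  have hΘdeg : charDegree ((χ₁ : G → ℂ) * (ψ' : G → ℂ)) = m * n := by
    show ⌊(((χ₁ : G → ℂ) * (ψ' : G → ℂ)) 1).re⌋₊ = m * n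
    rw [Pi.mul_apply, hχ₁one, hψ'one, ← Nat.cast_mul, Complex.natCast_re, Nat.floor_natCast]
  rw [hΘdeg] at hdeg
  -- the conjugate of `χ₁`
  obtain ⟨χb, hχbdef⟩ : ∃ χb : IrrCharacter G,
      χb = ⟨fun g => conj ((χ₁ : G → ℂ) g), Cfsg.Agent.Lib.Helper67.TC3H1.conj_irr χ₁.2⟩ :=
    ⟨_, rfl⟩
  have hχbval : ∀ g, (χb : G → ℂ) g = conj ((χ₁ : G → ℂ) g) := by
    intro g
    rw [hχbdef]
  have hχbone : (χb : G → ℂ) 1 = (m : ℂ) := by
    rw [hχbval, hχ₁one, Complex.conj_natCast]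
  have hχbdeg : charDegree (χb : G → ℂ) = m := by
    have h2 := apply_one_eq_charDegree (isCharacter_of_isIrrCharacter χb.2)
    rw [hχbone] at h2
    exact_mod_cast h2.symm
  -- (1) `χ₁` is a constituent
  have haχ : a χ₁ ≠ 0 := by
    intro h0
    apply hne
    have key : classInner (fun g => (χ₁ : G → ℂ) g * (χ₂ : G → ℂ) g) (ψ : G → ℂ) =
        conj (classInner ((χ₁ : G → ℂ) * (ψ' : G → ℂ)) (χ₁ : G → ℂ)) := by
      unfold classInner
      rw [map_mul, map_inv₀, Complex.conj_natCast, map_sum]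
      congr 1
      apply Finset.sum_congr rfl
      intro g _
      simp only [Pi.mul_apply, hlam g, hψ'val g, map_mul, Complex.conj_conj]
      ring
    rw [key, ha χ₁, h0]
    simp
  -- (2) no linear constituent
  have hnolin : ∀ φ : IrrCharacter G, charDegree (φ : G → ℂ) = 1 → a φ = 0 := by
    intro φ hφ
    by_contra hne0
    have hφc : IsCharacter G (φ : G → ℂ) := isCharacter_of_isIrrCharacter φ.2
    have hφ1 : (φ : G → ℂ) 1 = 1 := by
      rw [apply_one_eq_charDegree hφc, hφ]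
      simp
    have hξirr : IsIrrCharacter G ((χb : G → ℂ) * (φ : G → ℂ)) :=
      Cfsg.Agent.Lib.CT.LinChar.isIrrCharacter_mul_linear χb.2 hφc hφ1
    have hinner : classInner (ψ' : G → ℂ) ((χb : G → ℂ) * (φ : G → ℂ)) = a φ := by
      rw [← ha φ]
      unfold classInner
      congr 1
      apply Finset.sum_congr rfl
      intro g _
      rw [Pi.mul_apply, Pi.mul_apply, hχbval g]
      simp only [map_mul, Complex.conj_conj]
      ring
    have heq : ψ' = ⟨_, hξirr⟩ := by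
      by_contra hneq
      have h2 := Cfsg.Agent.Lib.Helper3.Irr.irr_inner_ne hneq
      rw [hinner] at h2
      exact hne0 (by exact_mod_cast h2)
    have h3 : (ψ' : G → ℂ) 1 = (χb : G → ℂ) 1 * (φ : G → ℂ) 1 := by
      rw [heq]
      rfl
    rw [hψ'one, hχbone, hφ1, mul_one] at h3
    have h4 : n = m := by exact_mod_cast h3
    omega
  -- (3) constituents of degree `m` agree with `χ₁` on the commutator subgroup
  have hcons : ∀ φ : IrrCharacter G, a φ ≠ 0 → charDegree (φ : G → ℂ) = m →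
      ∀ g ∈ commutator G, (φ : G → ℂ) g = (χ₁ : G → ℂ) g := by
    intro φ hφ0 hφm g hg
    have hinner : classInner (fun x => (χb : G → ℂ) x * (φ : G → ℂ) x) (ψ' : G → ℂ) ≠ 0 := by
      have key : classInner (fun x => (χb : G → ℂ) x * (φ : G → ℂ) x) (ψ' : G → ℂ) =
          conj (classInner ((χ₁ : G → ℂ) * (ψ' : G → ℂ)) (φ : G → ℂ)) := by
        unfold classInner
        rw [map_mul, map_inv₀, Complex.conj_natCast, map_sum]
        congr 1
        apply Finset.sum_congr rfl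
        intro x _
        simp only [Pi.mul_apply, hχbval x, map_mul, Complex.conj_conj]
        ring
      rw [key, ha φ]
      simpa using hφ0
    obtain ⟨μ, hμ1, hμ⟩ := h1 G m n hD hcop hmn χb φ ψ' hχbdeg hφm hψ'deg hinner
    have hμc : IsCharacter G (μ : G → ℂ) := isCharacter_of_isIrrCharacter μ.2
    have hμone : (μ : G → ℂ) 1 = 1 := by
      rw [apply_one_eq_charDegree hμc, hμ1]
      simp
    have hμg : (μ : G → ℂ) g = 1 := by
      rw [Cfsg.Agent.Lib.Helper3.TDTak.apply_eq_one_of_mem_commutator μ hμ1 hg, hμone]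
    rw [hμ g, hμg, one_mul, hχbval g, Complex.conj_conj]
  -- (4) arithmetic
  have hsum : m * n = m * (∑ φ : IrrCharacter G, if charDegree (φ : G → ℂ) = m then a φ else 0) +
      n * (∑ φ : IrrCharacter G, if charDegree (φ : G → ℂ) = n then a φ else 0) := by
    rw [hdeg, Finset.mul_sum, Finset.mul_sum, ← Finset.sum_add_distrib]
    apply Finset.sum_congr rfl
    intro φ _
    rcases hD φ with h | h | h
    · rw [hnolin φ h, h, if_neg (by omega), if_neg (by omega)]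
      simp
    · rw [h, if_pos rfl, if_neg (by omega)]
      ring
    · rw [h, if_neg (by omega), if_pos rfl]
      ring
  have hA1 : 1 ≤ ∑ φ : IrrCharacter G, if charDegree (φ : G → ℂ) = m then a φ else 0 := by
    have h2 := Finset.single_le_sum
      (f := fun φ : IrrCharacter G => if charDegree (φ : G → ℂ) = m then a φ else 0)
      (fun _ _ => Nat.zero_le _) (Finset.mem_univ χ₁)
    simp only [hχ₁, if_true] at h2
    have h3 : 1 ≤ a χ₁ := Nat.one_le_iff_ne_zero.2 haχ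
    omega
  obtain ⟨hA, hB⟩ := arith m n _ _ hcop hm hmn hA1 hsum
  have hBzero : ∀ φ : IrrCharacter G, charDegree (φ : G → ℂ) = n → a φ = 0 := by
    intro φ hφ
    have h2 := (Finset.sum_eq_zero_iff.1 hB) φ (Finset.mem_univ φ)
    rwa [if_pos hφ] at h2
  intro g hg hχg
  have hΘg : (χ₁ : G → ℂ) g * (ψ' : G → ℂ) g = (n : ℂ) * (χ₁ : G → ℂ) g := by
    have h2 := hexp g
    rw [Pi.mul_apply] at h2
    rw [h2]
    have h3 : ∀ φ : IrrCharacter G, (a φ : ℂ) * (φ : G → ℂ) g =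
        (((if charDegree (φ : G → ℂ) = m then a φ else 0 : ℕ)) : ℂ) * (χ₁ : G → ℂ) g := by
      intro φ
      rcases hD φ with h | h | h
      · rw [hnolin φ h, h, if_neg (by omega)]
        simp
      · rw [if_pos h]
        by_cases h0 : a φ = 0
        · rw [h0]
          simp
        · rw [hcons φ h0 h g hg]
      · rw [hBzero φ h, h, if_neg (by omega)]
        simp
    rw [Finset.sum_congr rfl (fun φ _ => h3 φ), ← Finset.sum_mul, ← Nat.cast_sum, hA]
  have h5 : (χ₁ : G → ℂ) g * (ψ' : G → ℂ) g = (χ₁ : G → ℂ) g * (n : ℂ) := by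
    rw [hΘg, mul_comm]
  exact mul_left_cancel₀ hχg h5

end Cfsg.Agent.Lib.Helper53.TC3H3
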