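import Mathlib
import Cfsg.Agent.Lib.Helper14.TC3Stmt
import Cfsg.Agent.Lib.Helper3.TDBasic
import Cfsg.Agent.Lib.Helper3.MGroup
import Cfsg.Agent.Lib.Helper78.Gallagher

/-!
# S4460 piece H4 (helper14's call): the final contradiction of Lemma H.
-/

set_option autoImplicit false

namespace Cfsg.Agent.Lib.Helper53.TC3H4

open Cfsg Cfsg.Agent.Lib.Helper14.TC3Stmt
open Cfsg.Agent.Lib.Helper80.Integrality
open scoped ComplexConjugate commutatorElement

universe u

theorem main : H4.{u} := by
  intro G _ _ m n hm hn hU χ ψ' hχ hψ' hkey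
  classical
  have hψc : IsCharacter G (ψ' : G → ℂ) := isCharacter_of_isIrrCharacter ψ'.2
  have hχc : IsCharacter G (χ : G → ℂ) := isCharacter_of_isIrrCharacter χ.2
  obtain ⟨N, hNn, hN⟩ := Cfsg.Agent.Lib.CT.Kernel.exists_normal_ker hψc
  have hψ1 : (ψ' : G → ℂ) 1 = (n : ℂ) := by rw [apply_one_eq_charDegree hψc, hψ']
  have hχ1 : (χ : G → ℂ) 1 = (m : ℂ) := by rw [apply_one_eq_charDegree hχc, hχ]
  have hDn : (commutator G).Normal := inferInstance
  have hcm : ∀ a b : G, ⁅a, b⁆ ∈ commutator G := fun a b =>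
    Subgroup.commutator_mem_commutator (Subgroup.mem_top a) (Subgroup.mem_top b)
  by_cases hL : commutator G ⊓ N = ⊥
  · have hvan : ∀ g ∈ commutator G, g ≠ 1 → (χ : G → ℂ) g = 0 := by
      intro g hg hg1
      by_contra hne
      have h1 := hkey g hg hne
      have h2 : g ∈ N := (hN g).2 (by rw [h1, hψ1])
      have h3 : g ∈ commutator G ⊓ N := ⟨hg, h2⟩
      rw [hL, Subgroup.mem_bot] at h3
      exact hg1 h3
    haveI : Fintype (commutator G) := Fintype.ofFinite _
    have hΦ : IsCharacter G (indFun (commutator G) (fun _ : commutator G => (1 : ℂ))) :=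
      Cfsg.Agent.Lib.CT.IndChar.isCharacter_indFun (commutator G) _
        Cfsg.Agent.Lib.CT.Ops.isCharacter_one
    have hcon : classInner (indFun (commutator G) (fun _ : commutator G => (1 : ℂ)))
        (χ : G → ℂ) ≠ 0 := by
      rw [Cfsg.Agent.Lib.CT.FrobRec.frobenius_reciprocity (commutator G) (fun _ => (1 : ℂ))
        (χ : G → ℂ) (Cfsg.Agent.Lib.CT.Orth.irr_isClassFunction χ)]
      unfold classInner
      have h1 : ∑ h : commutator G, (1 : ℂ) * conj ((χ : G → ℂ) h) = (m : ℂ) := by
        rw [Finset.sum_eq_single (1 : commutator G)]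
        · rw [Subgroup.coe_one, hχ1, one_mul, Complex.conj_natCast]
        · intro h _ hh
          rw [hvan h h.2 (fun h0 => hh (Subtype.ext h0))]
          simp
        · intro h
          exact absurd (Finset.mem_univ _) h
      rw [h1]
      exact mul_ne_zero (inv_ne_zero (Nat.cast_ne_zero.2 Nat.card_pos.ne'))
        (Nat.cast_ne_zero.2 (by omega))
    have hker : ∀ k ∈ commutator G, (χ : G → ℂ) k = (χ : G → ℂ) 1 := by
      intro k hk
      apply Cfsg.Agent.Lib.Helper3.MGroup.constituent_apply_eq hΦ χ.2 hcon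
      have e1 := Cfsg.Agent.Lib.Helper78.Gallagher.indFun_apply_of_invariant (commutator G) hDn
        (fun _ => (1 : ℂ)) (fun _ _ => rfl) ⟨k, hk⟩
      have e2 := Cfsg.Agent.Lib.Helper78.Gallagher.indFun_apply_of_invariant (commutator G) hDn
        (fun _ => (1 : ℂ)) (fun _ _ => rfl) (1 : commutator G)
      exact e1.trans e2.symm
    have h1 : (χ : G → ℂ) 1 = 1 :=
      Cfsg.Agent.Lib.Helper3.MGroup.apply_one_eq_one_of_comm χ.2 (fun a b => hker _ (hcm a b))
    rw [hχ1] at h1
    have h2 : m = 1 := by exact_mod_cast h1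
    omega
  · have := hNn
    have hle := hU (commutator G ⊓ N) inferInstance hL
    have h1 : (ψ' : G → ℂ) 1 = 1 :=
      Cfsg.Agent.Lib.Helper3.MGroup.apply_one_eq_one_of_comm ψ'.2
        (fun a b => (hN _).1 (hle (hcm a b)).2)
    rw [hψ1] at h1
    have h2 : n = 1 := by exact_mod_cast h1
    omega

end Cfsg.Agent.Lib.Helper53.TC3H4
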