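import Mathlib
import Cfsg.Agent.Lib.Helper44.TPStmt
import Cfsg.Agent.Lib.Helper44.Levi
import Cfsg.Agent.Lib.Helper44.FinSq
import Cfsg.Agent.Lib.Helper2.NegSqGen

/-!
# S5973 / INVBAD2 (call by helper44)

`q ≡ 3 (mod 4)`, `d` even, `m` odd: the Levi image `x` of the block matrix `[[0, -1], [1, 0]]`
lies in `Omega` (`Helper2.NegSqGen.mem_omega_iff'`), has `x * x = -1`, is not scalar and fixes no
subspace of odd finrank `m` at all (determinant of the restriction squares to `-1`).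
-/

set_option autoImplicit false

universe u

open scoped Matrix

namespace Cfsg.Agent.Lib.Helper53.TPINVBAD2

open Cfsg.Agent.Lib.Helper44.TPStmt
open Cfsg.Agent.Lib.Helper44.NegPairs Cfsg.Agent.Lib.Helper44.Levi

theorem fb_neg_one (k : ℕ) (F : Type u) [Field F] :
    Matrix.fromBlocks (-1 : Matrix (Fin k) (Fin k) F) (0 : Matrix (Fin k) (Fin k) F)
      (0 : Matrix (Fin k) (Fin k) F) (-1 : Matrix (Fin k) (Fin k) F) =
      (-1 : Matrix (Fin k ⊕ Fin k) (Fin k ⊕ Fin k) F) := by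
  rw [← Matrix.fromBlocks_one, Matrix.fromBlocks_neg]
  simp

/-- the block matrix `[[0, -1], [1, 0]]` on `Fin (k + k)` -/
def Am (k : ℕ) (F : Type u) [Field F] : Matrix (Fin (k + k)) (Fin (k + k)) F :=
  (Matrix.fromBlocks (0 : Matrix (Fin k) (Fin k) F) (-1) 1 0).submatrix
    finSumFinEquiv.symm finSumFinEquiv.symm

theorem Am_mul (k : ℕ) (F : Type u) [Field F] : Am k F * Am k F = -1 := by
  unfold Am
  rw [Matrix.submatrix_mul_equiv, Matrix.fromBlocks_multiply]
  simp only [Matrix.mul_zero, Matrix.zero_mul, add_zero, zero_add, Matrix.mul_one,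
    Matrix.one_mul]
  rw [fb_neg_one, Matrix.submatrix_neg]
  simp

/-- the matrix `Am` as an element of `GL` -/
def Ag (k : ℕ) (F : Type u) [Field F] : Matrix.GeneralLinearGroup (Fin (k + k)) F :=
  ⟨Am k F, -Am k F, by rw [mul_neg, Am_mul, neg_neg], by rw [neg_mul, Am_mul, neg_neg]⟩

theorem leviM_Ag_sq (k : ℕ) (F : Type u) [Field F] :
    leviM (Ag k F) * leviM (Ag k F) = -1 := by
  have h1 : (((Ag k F)⁻¹ : Matrix.GeneralLinearGroup (Fin (k + k)) F) :
      Matrix (Fin (k + k)) (Fin (k + k)) F) = -Am k F := rfl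
  have h2 : ((Ag k F : Matrix.GeneralLinearGroup (Fin (k + k)) F) :
      Matrix (Fin (k + k)) (Fin (k + k)) F) = Am k F := rfl
  unfold leviM
  rw [Matrix.fromBlocks_multiply, h1, h2]
  simp only [Matrix.mul_zero, Matrix.zero_mul, add_zero, zero_add]
  rw [← Matrix.transpose_mul, neg_mul_neg, Am_mul, Matrix.transpose_neg, Matrix.transpose_one]
  rw [← Matrix.fromBlocks_one, Matrix.fromBlocks_neg]
  simp

theorem main : InvBad2.{u} := by
  intro F _ _ hq d m hd3 hde hm
  classical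
  obtain ⟨k, rfl⟩ := hde
  have hodd : Odd (Fintype.card F) := by
    rw [Nat.odd_iff]
    omega
  have h2 : (2 : F) ≠ 0 := Cfsg.Agent.Lib.Helper44.FinSq.two_ne_zero_of_odd_card hodd
  have hns : ¬ IsSquare (-1 : F) := by
    rw [FiniteField.isSquare_neg_one_iff]
    omega
  have hsq : ((leviGL (Ag k F) : Matrix.GeneralLinearGroup (J (k + k)) F) :
      Matrix (J (k + k)) (J (k + k)) F) *
      ((leviGL (Ag k F) : Matrix.GeneralLinearGroup (J (k + k)) F) :
      Matrix (J (k + k)) (J (k + k)) F) = -1 := by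
    rw [coe_leviGL]
    exact leviM_Ag_sq k F
  refine ⟨leviGL (Ag k F), ?_, ?_, ?_, ?_⟩
  · -- in Omega
    have hcard : 2 ≤ Fintype.card (Fin (k + k) ⊕ Fin (k + k)) := by
      simp only [Fintype.card_sum, Fintype.card_fin]
      omega
    obtain ⟨n, hn1, hn2⟩ := Cfsg.Agent.Lib.Helper2.NegSqGen.mem_omega_iff' h2
      (plusQ (k + k) F) (sep_plusQ (k + k)) hcard (levi (k + k) F (Ag k F))
      (by rw [coe_levi]; exact leviM_Ag_sq k F)
    have hn : n = k + k := by
      simp only [Fintype.card_sum, Fintype.card_fin] at hn1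
      omega
    have hΩ : levi (k + k) F (Ag k F) ∈ Cfsg.Omega F ⇑(plusQ (k + k) F) :=
      hn2.mpr (Or.inl ⟨k, hn⟩)
    show leviGL (Ag k F) ∈ Cfsg.Geo.omegaGL ⇑(plusQ (k + k) F)
    unfold Cfsg.Geo.omegaGL
    rw [Subgroup.mem_map]
    exact ⟨levi (k + k) F (Ag k F), hΩ, rfl⟩
  · rw [pow_two, Units.val_mul, hsq, neg_smul, one_smul]
  · intro z hz
    have h3 := hsq
    rw [hz] at h3
    have h4 := congrFun (congrFun h3 (Sum.inl ⟨0, by omega⟩)) (Sum.inl ⟨0, by omega⟩)
    simp at h4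
    exact hns ⟨z, h4.symm⟩
  · rintro ⟨W, hWm, -, hStab⟩
    have hinv : ∀ w ∈ W, Matrix.toLin' ((leviGL (Ag k F) :
        Matrix.GeneralLinearGroup (J (k + k)) F) : Matrix (J (k + k)) (J (k + k)) F) w ∈ W :=
      fun w hw => hStab (Submodule.mem_map_of_mem hw)
    obtain ⟨f, hf⟩ : ∃ f : Module.End F W, f = (Matrix.toLin' ((leviGL (Ag k F) :
        Matrix.GeneralLinearGroup (J (k + k)) F) : Matrix (J (k + k)) (J (k + k)) F)).restrict
        hinv := ⟨_, rfl⟩
    have hff : f * f = (-1 : F) • (1 : Module.End F W) := by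
      apply LinearMap.ext
      intro w
      apply Subtype.ext
      rw [hf]
      show ((leviGL (Ag k F) : Matrix.GeneralLinearGroup (J (k + k)) F) :
          Matrix (J (k + k)) (J (k + k)) F) *ᵥ
        (((leviGL (Ag k F) : Matrix.GeneralLinearGroup (J (k + k)) F) :
          Matrix (J (k + k)) (J (k + k)) F) *ᵥ (w : J (k + k) → F)) =
        (-1 : F) • (w : J (k + k) → F)
      rw [Matrix.mulVec_mulVec, hsq, Matrix.neg_mulVec, Matrix.one_mulVec, neg_smul, one_smul]
    have hdet : LinearMap.det f * LinearMap.det f = -1 := by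
      rw [← map_mul, hff, LinearMap.det_smul, map_one, mul_one, hWm, Odd.neg_one_pow hm]
    exact hns ⟨_, hdet.symm⟩

end Cfsg.Agent.Lib.Helper53.TPINVBAD2
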